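import Cfsg.Agent.GeoMax.OTransport

/-!
# Orthogonal frames: basic set-up

`V = ι → F` with the form `Q0 v = ∑ v i ^ 2`, frame vectors `e i`, total reflections `rf v`,
monomial isometries `Mon g`, and the standing hypothesis `Base M` (the subgroup `M` of the isometry
group contains the even sign changes and the even permutations).
-/

set_option autoImplicit false
set_option linter.unusedSectionVars false
set_option linter.unusedVariables false

namespace Cfsg.Agent.SmallDim.Fr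

open QuadraticMap Module Cfsg.Agent.Orth Cfsg.Agent.GeoMax.Ort
open Matrix

variable {F : Type*} [Field F] {ι : Type} [Fintype ι] [DecidableEq ι]

/-- the form `∑ v i ^ 2` -/
noncomputable def Q0 (F : Type*) [Field F] (ι : Type) [Fintype ι] : QuadraticForm F (ι → F) :=
  QuadraticMap.weightedSumSquares F (fun _ : ι => (1 : F))

/-- apply an isometry to a vector -/
instance instCoeFunOGrp {V : Type*} [AddCommGroup V] [Module F V] {Q : QuadraticForm F V} :
    CoeFun (OGrp Q) (fun _ => V → V) := ⟨fun g => ((g : V ≃ₗ[F] V) : V → V)⟩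

theorem Q0_apply (v : ι → F) : Q0 F ι v = v ⬝ᵥ v := by
  simp [Q0, QuadraticMap.weightedSumSquares_apply, dotProduct]

theorem polar_Q0 (x y : ι → F) : polar (Q0 F ι) x y = 2 * (x ⬝ᵥ y) := by
  simp only [QuadraticMap.polar, Q0_apply, add_dotProduct, dotProduct_add]
  rw [dotProduct_comm y x]; ring

/-- frame vectors -/
abbrev e (i : ι) : ι → F := Pi.single i (1 : F)

theorem dot_e (v : ι → F) (i : ι) : v ⬝ᵥ e i = v i := by simp [e]

theorem e_dot (v : ι → F) (i : ι) : e i ⬝ᵥ v = v i := by simp [e]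

theorem e_dot_e_self (i : ι) : (e i : ι → F) ⬝ᵥ e i = 1 := by simp [e]

theorem e_dot_e_ne {i j : ι} (h : i ≠ j) : (e i : ι → F) ⬝ᵥ e j = 0 := by simp [e, h]

theorem e_ne_zero (i : ι) : (e i : ι → F) ≠ 0 := by
  intro h
  have := congrFun h i
  simp [e] at this

theorem e_inj {i j : ι} (h : (e i : ι → F) = e j) : i = j := by
  by_contra hne
  have := congrFun h i
  simp [e, Pi.single_eq_of_ne hne] at this

theorem eq_of_dot {x y : ι → F} (h : ∀ z, x ⬝ᵥ z = y ⬝ᵥ z) : x = y := by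
  funext i
  rw [← dot_e x i, ← dot_e y i, h]

theorem nondeg (h2 : (2 : F) ≠ 0) : (polarBilin (Q0 F ι)).Nondegenerate := by
  have key : ∀ x : ι → F, (∀ y, polar (Q0 F ι) x y = 0) → x = 0 := by
    intro x hx
    refine eq_of_dot fun z => ?_
    have := hx z
    rw [polar_Q0] at this
    rw [zero_dotProduct]
    exact (mul_eq_zero.1 this).resolve_left h2
  refine ⟨fun x hx => key x fun y => hx y, fun x hx => key x fun y => ?_⟩
  rw [pc]; exact hx y

theorem OGrp_dot (h2 : (2 : F) ≠ 0) (g : OGrp (Q0 F ι)) (x y : ι → F) : (g x) ⬝ᵥ (g y) = x ⬝ᵥ y := by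
  have := OGrp_polar g x y
  rw [polar_Q0, polar_Q0] at this
  exact mul_left_cancel₀ h2 this

theorem OGrp_self (g : OGrp (Q0 F ι)) (x : ι → F) : (g x) ⬝ᵥ (g x) = x ⬝ᵥ x := by
  have := OGrp_q g x
  rwa [Q0_apply, Q0_apply] at this

theorem mul_ap (g h : OGrp (Q0 F ι)) (x : ι → F) : (g * h) x = g (h x) := rfl

theorem one_ap (x : ι → F) : (1 : OGrp (Q0 F ι)) x = x := rfl

theorem inv_ap_self (g : OGrp (Q0 F ι)) (x : ι → F) : g⁻¹ (g x) = x := coe_inv_apply_self g x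

theorem ap_inv_self (g : OGrp (Q0 F ι)) (x : ι → F) : g (g⁻¹ x) = x := coe_apply_inv_self g x

theorem ap_inj (g : OGrp (Q0 F ι)) {x y : ι → F} (h : g x = g y) : x = y :=
  (g : (ι → F) ≃ₗ[F] (ι → F)).injective h

theorem ap_add (g : OGrp (Q0 F ι)) (x y : ι → F) : g (x + y) = g x + g y := map_add _ _ _

theorem ap_sub (g : OGrp (Q0 F ι)) (x y : ι → F) : g (x - y) = g x - g y := map_sub _ _ _

theorem ap_neg (g : OGrp (Q0 F ι)) (x : ι → F) : g (-x) = -g x := map_neg _ _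

theorem ap_smul (g : OGrp (Q0 F ι)) (c : F) (x : ι → F) : g (c • x) = c • g x := map_smul _ _ _

theorem dot_inv (h2 : (2 : F) ≠ 0) (g : OGrp (Q0 F ι)) (x y : ι → F) : (g x) ⬝ᵥ y = x ⬝ᵥ (g⁻¹ y) := by
  rw [← OGrp_dot h2 g x (g⁻¹ y), ap_inv_self]

theorem ext_e {g h : OGrp (Q0 F ι)} (H : ∀ i, g (e i) = h (e i)) : g = h := by
  refine OGrp_ext fun x => ?_
  have key : ((g : (ι → F) ≃ₗ[F] (ι → F)) : (ι → F) →ₗ[F] (ι → F)) = (h : (ι → F) ≃ₗ[F] (ι → F)) := by
    apply LinearMap.pi_ext'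
    intro i
    ext
    simpa using congrFun (H i) _
  exact LinearMap.congr_fun key x

/-- total reflection -/
noncomputable def rf (v : ι → F) : OGrp (Q0 F ι) :=
  open Classical in if h : Q0 F ι v ≠ 0 then refl (Q0 F ι) v h else 1

theorem rf_eq {v : ι → F} (h : Q0 F ι v ≠ 0) : rf v = refl (Q0 F ι) v h := by
  unfold rf; rw [dif_pos h]

theorem rf_ap {v : ι → F} (h : v ⬝ᵥ v ≠ 0) (x : ι → F) :
    rf v x = x - ((v ⬝ᵥ v)⁻¹ * (2 * (x ⬝ᵥ v))) • v := by
  have h' : Q0 F ι v ≠ 0 := by rwa [Q0_apply]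
  rw [rf_eq h', refl_apply, Q0_apply, polar_Q0]

theorem rf_ap1 {v : ι → F} (h : v ⬝ᵥ v = 1) (x : ι → F) : rf v x = x - (2 * (x ⬝ᵥ v)) • v := by
  rw [rf_ap (by rw [h]; exact one_ne_zero), h, inv_one, one_mul]

theorem rf_self {v : ι → F} (h : v ⬝ᵥ v ≠ 0) : rf v v = -v := by
  have h' : Q0 F ι v ≠ 0 := by rwa [Q0_apply]
  rw [rf_eq h', refl_apply_self]

theorem rf_ortho {v : ι → F} {x : ι → F} (hx : x ⬝ᵥ v = 0) : rf v x = x := by
  by_cases h : Q0 F ι v ≠ 0
  · rw [rf_eq h, refl_apply_of_ortho h (by rw [polar_Q0, hx, mul_zero])]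
  · unfold rf; rw [dif_neg h]; rfl

theorem rf_mul_self (v : ι → F) : rf v * rf v = 1 := by
  by_cases h : Q0 F ι v ≠ 0
  · rw [rf_eq h, refl_mul_self]
  · unfold rf; rw [dif_neg h]; rfl

theorem rf_rf (v x : ι → F) : rf v (rf v x) = x := by
  rw [← mul_ap, rf_mul_self]; rfl

theorem rf_inv (v : ι → F) : (rf v)⁻¹ = rf v := inv_eq_of_mul_eq_one_left (rf_mul_self v)

theorem rf_conj (g : OGrp (Q0 F ι)) (v : ι → F) : g * rf v * g⁻¹ = rf (g v) := by
  by_cases h : Q0 F ι v ≠ 0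
  · rw [rf_eq h, refl_conj, rf_eq]
  · have h' : ¬ Q0 F ι (g v) ≠ 0 := by rwa [OGrp_q]
    unfold rf
    rw [dif_neg h, dif_neg h', mul_one, mul_inv_cancel]

theorem rf_smul {v : ι → F} {c : F} (hc : c ≠ 0) : rf (c • v) = rf v := by
  by_cases h : Q0 F ι v ≠ 0
  · have h' : Q0 F ι (c • v) ≠ 0 := by
      rw [qsmul]; exact mul_ne_zero (mul_ne_zero hc hc) h
    rw [rf_eq h, rf_eq h', refl_smul h hc]
  · have h' : ¬ Q0 F ι (c • v) ≠ 0 := by
      rw [qsmul]; push Not at h ⊢; rw [h, mul_zero]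
    unfold rf
    rw [dif_neg h, dif_neg h']

theorem rf_neg (v : ι → F) : rf (-v) = rf v := by
  rw [← neg_one_smul F v]; exact rf_smul (neg_ne_zero.2 one_ne_zero)

/-- monomial isometries: those permuting the lines `⟨e i⟩` -/
def Mon (g : OGrp (Q0 F ι)) : Prop := ∀ i, ∃ j, g (e i) = e j ∨ g (e i) = -e j

theorem Mon.one : Mon (1 : OGrp (Q0 F ι)) := fun i => ⟨i, Or.inl rfl⟩

theorem Mon.mul {g h : OGrp (Q0 F ι)} (hg : Mon g) (hh : Mon h) : Mon (g * h) := by
  intro i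
  obtain ⟨j, hj⟩ := hh i
  obtain ⟨k, hk⟩ := hg j
  refine ⟨k, ?_⟩
  rw [mul_ap]
  rcases hj with hj | hj <;> rcases hk with hk | hk <;> rw [hj] <;> simp only [ap_neg, hk, neg_neg, true_or, or_true]

/-- the permutation of indices attached to a monomial isometry is injective -/
theorem Mon.inj {g : OGrp (Q0 F ι)} (h2 : (2 : F) ≠ 0) {i i' j : ι} (h : g (e i) = e j ∨ g (e i) = -e j)
    (h' : g (e i') = e j ∨ g (e i') = -e j) : i = i' := by
  by_contra hne
  have h0 := OGrp_dot h2 g (e i) (e i')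
  rw [e_dot_e_ne hne] at h0
  rcases h with h | h <;> rcases h' with h' | h' <;> rw [h, h'] at h0 <;> simp [e] at h0

theorem Mon.inv {g : OGrp (Q0 F ι)} (h2 : (2 : F) ≠ 0) (hg : Mon g) : Mon g⁻¹ := by
  classical
  choose s hs using hg
  have hinj : Function.Injective s := fun i i' hii => Mon.inj h2 (hs i) (by rw [hii]; exact hs i')
  have hsur := Finite.surjective_of_injective hinj
  intro j
  obtain ⟨i, rfl⟩ := hsur j
  refine ⟨i, ?_⟩
  rcases hs i with h | h
  · left; rw [← h, inv_ap_self]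
  · right
    have : g⁻¹ (-e (s i)) = e i := by rw [← h, inv_ap_self]
    rw [ap_neg] at this
    rw [← this, neg_neg]

/-- the group of monomial isometries -/
def MonG (h2 : (2 : F) ≠ 0) : Subgroup (OGrp (Q0 F ι)) where
  carrier := {g | Mon g}
  mul_mem' ha hb := Mon.mul ha hb
  one_mem' := Mon.one
  inv_mem' ha := Mon.inv h2 ha

theorem mem_MonG {h2 : (2 : F) ≠ 0} {g : OGrp (Q0 F ι)} : g ∈ MonG h2 ↔ Mon g := Iff.rfl

/-- root vectors `± e i ± e j` -/
def Rt (v : ι → F) : Prop :=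
  ∃ i j, i ≠ j ∧ (v = e i + e j ∨ v = e i - e j ∨ v = -e i + e j ∨ v = -e i - e j)

/-- the standing hypothesis: `M` contains the even sign changes and the even (signed) permutations -/
structure Base (M : Subgroup (OGrp (Q0 F ι))) : Prop where
  two : (2 : F) ≠ 0
  ee : ∀ i j : ι, rf (e i) * rf (e j) ∈ M
  dd : ∀ u v : ι → F, Rt u → Rt v → rf u * rf v ∈ M

/-- `g` fixes all the frame vectors outside `J` -/
def Fix (J : Finset ι) (g : OGrp (Q0 F ι)) : Prop := ∀ i, i ∉ J → g (e i) = e i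

/-- `g` fixes the frame vector `e i` -/
theorem Fix.mono {J J' : Finset ι} (h : J ⊆ J') {g : OGrp (Q0 F ι)} (hg : Fix J g) : Fix J' g :=
  fun i hi => hg i fun hi' => hi (h hi')

theorem Fix.one (J : Finset ι) : Fix J (1 : OGrp (Q0 F ι)) := fun _ _ => rfl

theorem Fix.mul {J : Finset ι} {g h : OGrp (Q0 F ι)} (hg : Fix J g) (hh : Fix J h) : Fix J (g * h) := by
  intro i hi
  rw [mul_ap, hh i hi, hg i hi]

theorem Fix.inv {J : Finset ι} {g : OGrp (Q0 F ι)} (hg : Fix J g) : Fix J g⁻¹ := by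
  intro i hi
  conv_lhs => rw [← hg i hi]
  rw [inv_ap_self]

/-- vectors supported in `J` are preserved -/
theorem Fix.supp (h2 : (2 : F) ≠ 0) {J : Finset ι} {g : OGrp (Q0 F ι)} (hg : Fix J g) {v : ι → F}
    (hv : ∀ i, i ∉ J → v i = 0) : ∀ i, i ∉ J → (g v) i = 0 := by
  intro i hi
  rw [← dot_e (g v) i, dot_inv h2, hg.inv i hi, dot_e]
  exact hv i hi

/-- the conclusion of the "small support" cases: `M` contains a light unipotent element -/
def Light (M : Subgroup (OGrp (Q0 F ι))) : Prop :=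
  ∃ (a : ι) (X : Finset ι) (d : ι → F), a ∉ X ∧ X.card ≤ 4 ∧ (∀ i, i ∉ X → d i = 0) ∧ d ≠ 0 ∧ d ⬝ᵥ d = 0 ∧
    rf (e a) * rf (e a + d) ∈ M

end Cfsg.Agent.SmallDim.Fr
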