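import Cfsg.Agent.SmallDim.Fr.Basic

/-!
# From one light unipotent element to the full commutator subgroup
-/

set_option autoImplicit false
set_option linter.unusedSectionVars false
set_option linter.unusedVariables false

namespace Cfsg.Agent.SmallDim.Fr

open QuadraticMap Module Cfsg.Agent.Orth Cfsg.Agent.GeoMax.Ort
open Matrix

variable {F : Type*} [Field F] {ι : Type} [Fintype ι] [DecidableEq ι]

theorem ffNat [Fintype F] (hp : (Fintype.card F).Prime) (c : F) : ∃ n : ℕ, (n : F) = c := by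
  haveI : NeZero (Fintype.card F) := ⟨hp.ne_zero⟩
  let eqv := ZMod.ringEquivOfPrime F hp rfl
  refine ⟨(eqv.symm c).val, ?_⟩
  have h1 : (((eqv.symm c).val : ℕ) : ZMod (Fintype.card F)) = eqv.symm c := ZMod.natCast_zmod_val _
  have h2 := congrArg eqv h1
  rwa [map_natCast, RingEquiv.apply_symm_apply] at h2

theorem ffNsmul {M : Subgroup (OGrp (Q0 F ι))} {d y : ι → F} (h : HasE M d y) (n : ℕ) : HasE M d (n • y) := by
  induction n with
  | zero => rw [zero_smul]; exact HasE.zero h.sing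
  | succ n ih => rw [succ_nsmul]; exact ih.add h

theorem ffSmul [Fintype F] (hp : (Fintype.card F).Prime) {M : Subgroup (OGrp (Q0 F ι))} {d y : ι → F}
    (h : HasE M d y) (c : F) : HasE M d (c • y) := by
  obtain ⟨n, rfl⟩ := ffNat hp c
  rw [Nat.cast_smul_eq_nsmul]; exact ffNsmul h n

theorem ffSum {κ : Type*} [DecidableEq κ] {M : Subgroup (OGrp (Q0 F ι))} {d : ι → F} (hd : Q0 F ι d = 0)
    (s : Finset κ) (f : κ → ι → F) (h : ∀ i ∈ s, HasE M d (f i)) : HasE M d (∑ i ∈ s, f i) := by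
  induction s using Finset.induction_on with
  | empty => rw [Finset.sum_empty]; exact HasE.zero hd
  | insert a s ha ih =>
    rw [Finset.sum_insert ha]
    exact (h a (Finset.mem_insert_self _ _)).add (ih fun i hi => h i (Finset.mem_insert_of_mem hi))

/-- the support -/
noncomputable def ffS (u : ι → F) : Finset ι := by
  classical exact Finset.univ.filter fun i => u i ≠ 0

theorem mem_ffS {u : ι → F} {i : ι} : i ∈ ffS u ↔ u i ≠ 0 := by
  unfold ffS; simp

/-- two indices outside a small set -/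
theorem ffTwo (hn : 10 ≤ Fintype.card ι) (Y : Finset ι) (hY : Y.card ≤ 8) :
    ∃ c c', c ∉ Y ∧ c' ∉ Y ∧ c ≠ c' := by
  have h1 : 1 < (Yᶜ).card := by
    rw [Finset.card_compl]; omega
  obtain ⟨c, hc, c', hc', hne⟩ := Finset.one_lt_card.1 h1
  exact ⟨c, c', Finset.mem_compl.1 hc, Finset.mem_compl.1 hc', hne⟩

theorem ffOne (hn : 10 ≤ Fintype.card ι) (Y : Finset ι) (hY : Y.card ≤ 8) : ∃ c, c ∉ Y := by
  obtain ⟨c, _, h, _⟩ := ffTwo hn Y hY
  exact ⟨c, h⟩

theorem ffDotSub (v : ι → F) (i j : ι) : v ⬝ᵥ (e i - e j) = v i - v j := by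
  rw [dotProduct_sub, dot_e, dot_e]

theorem ffRfSub (h2 : (2 : F) ≠ 0) {i j : ι} (hij : i ≠ j) (v : ι → F) :
    rf (e i - e j : ι → F) v = v ∘ Equiv.swap i j := by
  have h3 : (e i - e j : ι → F) ⬝ᵥ (e i - e j) = 2 := by
    rw [ffDotSub]
    simp only [Pi.sub_apply, e, Pi.single_eq_same, Pi.single_eq_of_ne hij, Pi.single_eq_of_ne hij.symm]
    norm_num
  rw [rf_ap (by rw [h3]; exact h2), h3, ffDotSub, ← mul_assoc, inv_mul_cancel₀ h2, one_mul]
  funext k
  simp only [Pi.sub_apply, Pi.smul_apply, smul_eq_mul, Function.comp_apply, e]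
  by_cases hk : k = i
  · subst hk
    rw [Equiv.swap_apply_left, Pi.single_eq_same, Pi.single_eq_of_ne hij]; ring
  · by_cases hk' : k = j
    · subst hk'
      rw [Equiv.swap_apply_right, Pi.single_eq_same, Pi.single_eq_of_ne hij.symm]; ring
    · rw [Equiv.swap_apply_of_ne_of_ne hk hk', Pi.single_eq_of_ne hk, Pi.single_eq_of_ne hk']; ring

/-- a swap realised in `M` on all vectors of small support -/
theorem ffSwap (hn : 10 ≤ Fintype.card ι) {M : Subgroup (OGrp (Q0 F ι))} (hM : Base M) {i j : ι} (hij : i ≠ j)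
    (Y : Finset ι) (hY : Y.card ≤ 6) :
    ∃ g ∈ M, ∀ v : ι → F, (∀ k, k ∉ Y → v k = 0) → g v = v ∘ Equiv.swap i j := by
  obtain ⟨c, c', hc, hc', hne⟩ := ffTwo hn (insert i (insert j Y)) (by
    refine (Finset.card_insert_le _ _).trans ?_
    have := Finset.card_insert_le j Y
    omega)
  simp only [Finset.mem_insert, not_or] at hc hc'
  refine ⟨rf (e i - e j) * rf (e c - e c'), hM.dd _ _ ⟨i, j, hij, by simp⟩ ⟨c, c', hne, by simp⟩, fun v hv => ?_⟩
  rw [mul_ap, rf_ortho (v := e c - e c') (x := v) (by rw [ffDotSub, hv c hc.2.2, hv c' hc'.2.2, sub_zero]),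
    ffRfSub hM.two hij]

theorem ffComp_e (i j : ι) : (e i : ι → F) ∘ Equiv.swap i j = e j := by
  funext k
  simp only [Function.comp_apply, e, Pi.single_apply]
  by_cases hk : k = j
  · subst hk; simp
  · rw [if_neg hk, if_neg]
    intro h
    apply hk
    have := congrArg (Equiv.swap i j) h
    rwa [Equiv.swap_apply_self, Equiv.swap_apply_left] at this

theorem ffComp_fix {u : ι → F} {i j : ι} (hi : u i = 0) (hj : u j = 0) : u ∘ Equiv.swap i j = u := by
  funext k
  simp only [Function.comp_apply]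
  by_cases hk : k = i
  · subst hk; rw [Equiv.swap_apply_left, hi, hj]
  · by_cases hk' : k = j
    · subst hk'; rw [Equiv.swap_apply_right, hi, hj]
    · rw [Equiv.swap_apply_of_ne_of_ne hk hk']

/-- step 1 -/
theorem ffStep1 [Fintype F] (hp : (Fintype.card F).Prime) (hn : 10 ≤ Fintype.card ι)
    {M : Subgroup (OGrp (Q0 F ι))} (hM : Base M) {d : ι → F} (hd4 : (ffS d).card ≤ 4)
    {a : ι} (ha : d a = 0) (h : HasE M d (e a)) {y : ι → F} (hy : ∀ i, d i ≠ 0 → y i = 0) : HasE M d y := by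
  have h1 : ∀ b, d b = 0 → HasE M d (e b) := by
    intro b hb
    by_cases hab : a = b
    · rw [← hab]; exact h
    obtain ⟨g, hg, hgv⟩ := ffSwap hn hM hab (insert a (ffS d)) (by
      have := Finset.card_insert_le a (ffS d)
      omega)
    have h2 := h.conj hg
    have h3 : g d = d := by
      rw [hgv d, ffComp_fix ha hb]
      intro k hk
      by_contra hk'
      exact hk (Finset.mem_insert_of_mem (mem_ffS.2 hk'))
    have h4 : g (e a) = e b := by
      rw [hgv (e a), ffComp_e]
      intro k hk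
      have : k ≠ a := fun h => hk (by rw [h]; exact Finset.mem_insert_self _ _)
      exact Pi.single_eq_of_ne this _
    rw [h3, h4] at h2
    exact h2
  have h5 : y = ∑ i, y i • (e i : ι → F) := by
    funext k
    rw [Finset.sum_apply, Finset.sum_eq_single k]
    · simp [e]
    · intro i _ hik
      simp [e, Pi.single_eq_of_ne hik.symm]
    · intro h; exact absurd (Finset.mem_univ k) h
  rw [h5]
  refine ffSum h.sing _ _ fun i _ => ?_
  by_cases hi : d i = 0
  · exact ffSmul hp (h1 i hi) _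
  · rw [hy i hi, zero_smul]; exact HasE.zero h.sing

/-- step 2: a disjoint copy -/
theorem ffStep2 [Fintype F] (hp : (Fintype.card F).Prime) (hn : 10 ≤ Fintype.card ι)
    {M : Subgroup (OGrp (Q0 F ι))} (hM : Base M) {X : Finset ι} (hX : X.card ≤ 4) :
    ∀ (n : ℕ) (u : ι → F), ((ffS u) ∩ X).card = n → (ffS u).card ≤ 4 → u ≠ 0 →
      (∃ a, u a = 0 ∧ HasE M u (e a)) →
      ∃ d' : ι → F, (ffS d').card ≤ 4 ∧ d' ≠ 0 ∧ (∀ i ∈ X, d' i = 0) ∧ ∃ a, d' a = 0 ∧ HasE M d' (e a) := by
  intro n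
  induction n with
  | zero =>
    intro u hu hu4 hu0 hex
    refine ⟨u, hu4, hu0, fun i hi => ?_, hex⟩
    by_contra hui
    have : i ∈ ffS u ∩ X := Finset.mem_inter.2 ⟨mem_ffS.2 hui, hi⟩
    rw [Finset.card_eq_zero.1 hu] at this
    exact Finset.notMem_empty _ this
  | succ n ih =>
    intro u hu hu4 hu0 hex
    obtain ⟨a, ha, hE⟩ := hex
    obtain ⟨i, hi⟩ : (ffS u ∩ X).Nonempty := by
      rw [← Finset.card_pos]; omega
    rw [Finset.mem_inter, mem_ffS] at hi
    obtain ⟨b, hb⟩ := ffOne hn (ffS u ∪ X) ((Finset.card_union_le _ _).trans (by omega))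
    rw [Finset.mem_union, not_or, mem_ffS, not_not] at hb
    have hib : i ≠ b := fun h => hb.2 (h ▸ hi.2)
    obtain ⟨g, hg, hgv⟩ := ffSwap hn hM hib (insert a (ffS u)) (by
      have := Finset.card_insert_le a (ffS u)
      omega)
    have h3 : g u = u ∘ Equiv.swap i b := by
      apply hgv u
      intro k hk
      by_contra hk'
      exact hk (Finset.mem_insert_of_mem (mem_ffS.2 hk'))
    have h4 : g (e a) = (e a : ι → F) ∘ Equiv.swap i b := by
      apply hgv (e a)
      intro k hk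
      have : k ≠ a := fun h => hk (by rw [h]; exact Finset.mem_insert_self _ _)
      exact Pi.single_eq_of_ne this _
    have hia : i ≠ a := by
      rintro rfl; exact hi.1 ha
    -- support of the image
    have hS : ffS (u ∘ Equiv.swap i b) = (ffS u).map (Equiv.swap i b).toEmbedding := by
      ext k
      rw [mem_ffS, Finset.mem_map_equiv, mem_ffS, Equiv.symm_swap]
      rfl
    have hcard : (ffS (u ∘ Equiv.swap i b)).card ≤ 4 := by rw [hS, Finset.card_map]; exact hu4
    have hinter : ffS (u ∘ Equiv.swap i b) ∩ X = (ffS u ∩ X).erase i := by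
      ext k
      rw [Finset.mem_inter, Finset.mem_erase, Finset.mem_inter, mem_ffS, mem_ffS]
      simp only [Function.comp_apply]
      by_cases hk : k = i
      · subst hk
        rw [Equiv.swap_apply_left]
        constructor
        · rintro ⟨h, -⟩; exact absurd hb.1 h
        · rintro ⟨h, -⟩; exact absurd rfl h
      · by_cases hk' : k = b
        · subst hk'
          constructor
          · rintro ⟨-, h⟩; exact absurd h hb.2
          · rintro ⟨-, -, h⟩; exact absurd h hb.2
        · rw [Equiv.swap_apply_of_ne_of_ne hk hk']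
          constructor
          · rintro ⟨h, h'⟩; exact ⟨hk, h, h'⟩
          · rintro ⟨-, h, h'⟩; exact ⟨h, h'⟩
    refine ih (u ∘ Equiv.swap i b) ?_ hcard ?_ ?_
    · rw [hinter, Finset.card_erase_of_mem (by rw [Finset.mem_inter, mem_ffS]; exact hi), hu]; rfl
    · intro h
      apply hi.1
      have := congrFun h b
      simpa using this
    · have h5 := hE.conj hg
      rw [h3, h4] at h5
      by_cases hab : a = b
      · refine ⟨i, ?_, ?_⟩
        · simp only [Function.comp_apply, Equiv.swap_apply_left]; exact hb.1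
        · subst hab
          rwa [Equiv.swap_comm i a, ffComp_e, Equiv.swap_comm a i] at h5
      · refine ⟨a, ?_, ?_⟩
        · simp only [Function.comp_apply, Equiv.swap_apply_of_ne_of_ne hia.symm hab]; exact ha
        · rwa [ffComp_fix (u := e a) (Pi.single_eq_of_ne hia _) (Pi.single_eq_of_ne (Ne.symm hab) _)] at h5

/-- step 3: the full radical -/
theorem ffStep3 [Fintype F] (hp : (Fintype.card F).Prime) (hn : 10 ≤ Fintype.card ι)
    {M : Subgroup (OGrp (Q0 F ι))} (hM : Base M) {d : ι → F} (hd4 : (ffS d).card ≤ 4) (hd0 : d ≠ 0)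
    {a : ι} (ha : d a = 0) (h : HasE M d (e a)) : FullR M d := by
  have h2 := hM.two
  obtain ⟨d', hd'4, hd'0, hdd', a', ha', h'⟩ := ffStep2 hp hn hM hd4 _ d rfl hd4 hd0 ⟨a, ha, h⟩
  have hoff : ∀ i, d i ≠ 0 → d' i = 0 := fun i hi => hdd' i (mem_ffS.2 hi)
  intro b hb
  rw [polar_Q0] at hb
  have hb' : d ⬝ᵥ b = 0 := (mul_eq_zero.1 hb).resolve_left h2
  classical
  set b1 : ι → F := fun i => if d i = 0 then b i else 0 with hb1
  set b2 : ι → F := fun i => if d i = 0 then 0 else b i with hb2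
  have hsplit : b = b1 + b2 := by
    funext i
    simp only [hb1, hb2, Pi.add_apply]
    split_ifs <;> simp
  have hE1 : HasE M d b1 := ffStep1 hp hn hM hd4 ha h (fun i hi => by simp only [hb1, if_neg hi])
  have hb2d : d ⬝ᵥ b2 = 0 := by
    rw [← hb']
    simp only [dotProduct]
    refine Finset.sum_congr rfl fun i _ => ?_
    simp only [hb2]
    by_cases hi : d i = 0
    · rw [if_pos hi, hi]; simp
    · rw [if_neg hi]
  have hb2off : ∀ i, d' i ≠ 0 → b2 i = 0 := by
    intro i hi
    simp only [hb2]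
    by_cases hdi : d i = 0
    · rw [if_pos hdi]
    · exact absurd (hoff i hdi) hi
  obtain ⟨ha0, hab0, hmem⟩ : HasE M d' b2 := ffStep1 hp hn hM hd'4 ha' h' hb2off
  obtain ⟨j, hj⟩ : ∃ j, d' j ≠ 0 := by
    by_contra hcon
    push Not at hcon
    exact hd'0 (funext hcon)
  have hdj : d j = 0 := by
    by_contra hdj
    exact hj (hoff j hdj)
  set y : ι → F := (-(2 * d' j)⁻¹) • e j with hy
  have hydot : y ⬝ᵥ d' = -(2 : F)⁻¹ := by
    rw [hy, smul_dotProduct, e_dot, smul_eq_mul]
    field_simp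
  have hyb2 : y ⬝ᵥ b2 = 0 := by
    rw [hy, smul_dotProduct, e_dot, smul_eq_mul]
    simp only [hb2, if_pos hdj, mul_zero]
  have hdd0 : d ⬝ᵥ d' = 0 := by
    simp only [dotProduct]
    refine Finset.sum_eq_zero fun i _ => ?_
    by_cases hi : d i = 0
    · rw [hi, zero_mul]
    · rw [hoff i hi, mul_zero]
  have hEy : HasE M d y := ffStep1 hp hn hM hd4 ha h (fun i hi => by
    have : i ≠ j := fun h => hi (h ▸ hdj)
    rw [hy, Pi.smul_apply, show (e j : ι → F) i = 0 from Pi.single_eq_of_ne this _, smul_zero])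
  have hc := hEy.conj hmem
  have e1 : (eich (Q0 F ι) d' b2 ha0 hab0 : (ι → F) ≃ₗ[F] (ι → F)) d = d := by
    rw [eich_apply, polar_Q0, polar_Q0, hb2d, hdd0]
    simp
  have e2 : (eich (Q0 F ι) d' b2 ha0 hab0 : (ι → F) ≃ₗ[F] (ι → F)) y = y + b2 + Q0 F ι b2 • d' := by
    rw [eich_apply, polar_Q0, polar_Q0, hyb2, hydot, mul_neg, mul_inv_cancel₀ h2]
    simp only [mul_zero, zero_smul, add_zero, mul_neg, mul_one, neg_smul, one_smul, sub_neg_eq_add]
  rw [e1, e2] at hc
  have hE3 : HasE M d (y + Q0 F ι b2 • d') := by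
    refine hEy.add (ffStep1 hp hn hM hd4 ha h fun i hi => ?_)
    rw [Pi.smul_apply, hoff i hi, smul_zero]
  have hE4 := hc.sub hE3
  have e3 : y + b2 + Q0 F ι b2 • d' - (y + Q0 F ι b2 • d') = b2 := by abel
  rw [e3] at hE4
  rw [hsplit]
  exact hE1.add hE4

/-- (F) -/
theorem full_of_light [Fintype F] (hp : (Fintype.card F).Prime) (hn : 10 ≤ Fintype.card ι)
    {M : Subgroup (OGrp (Q0 F ι))} (hM : Base M) (hL : Light M) : commutator (OGrp (Q0 F ι)) ≤ M := by
  have h2 := hM.two
  obtain ⟨a, X, d, haX, hX, hd, hd0, hdd, hmem⟩ := hL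
  have hda : d a = 0 := hd a haX
  have h1 : HasE M (-d) (e a) := by
    have hs : Q0 F ι (-d) = 0 := by rw [Q0_apply, neg_dotProduct_neg, hdd]
    have ho : polar (Q0 F ι) (-d) (e a) = 0 := by rw [polar_Q0, dot_e, Pi.neg_apply, hda]; simp
    refine ⟨hs, ho, ?_⟩
    have hq : Q0 F ι (e a) = 1 := by rw [Q0_apply, e_dot_e_self]
    have he : (e a : ι → F) - Q0 F ι (e a) • (-d) = e a + d := by rw [hq, one_smul, sub_neg_eq_add]
    have hq' : Q0 F ι (e a + d) = 1 := by
      rw [Q0_apply, add_dotProduct, dotProduct_add, dotProduct_add, e_dot_e_self, e_dot, dot_e, hda, hdd]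
      simp
    rw [eich_eq_refl_mul hs ho (by rw [hq]; exact one_ne_zero) (by rw [he, hq']; exact one_ne_zero)]
    have e1 : rf (e a : ι → F) = refl (Q0 F ι) (e a) (by rw [hq]; exact one_ne_zero) := rf_eq _
    have e2 : rf (e a + d : ι → F) = refl (Q0 F ι) (e a - Q0 F ι (e a) • (-d)) (by rw [he, hq']; exact one_ne_zero) := by
      rw [← rf_eq, he]
    rw [← e1, ← e2]
    exact hmem
  have hS4 : (ffS (-d)).card ≤ 4 := by
    refine (Finset.card_le_card fun i hi => ?_).trans hX
    by_contra hiX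
    rw [mem_ffS, Pi.neg_apply, hd i hiX] at hi
    simp at hi
  have hF : FullR M (-d) := ffStep3 hp hn hM hS4 (neg_ne_zero.2 hd0) (by rw [Pi.neg_apply, hda, neg_zero]) h1
  obtain ⟨i, hi⟩ : ∃ i, d i ≠ 0 := by
    by_contra hcon
    push Not at hcon
    exact hd0 (funext hcon)
  have hg : rf (e i) * rf (e a) ∈ M := hM.ee i a
  have hF' := hF.conj hg
  have e1 : ((rf (e i) * rf (e a) : OGrp (Q0 F ι)) : (ι → F) ≃ₗ[F] (ι → F)) (-d) = -d + (2 * d i) • e i := by
    change (rf (e i) * rf (e a) : OGrp (Q0 F ι)) (-d) = _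
    rw [mul_ap, rf_ortho (x := -d) (v := e a) (by rw [dot_e, Pi.neg_apply, hda, neg_zero]),
      rf_ap1 (e_dot_e_self i), dot_e, Pi.neg_apply, mul_neg, neg_smul, sub_neg_eq_add]
  rw [e1] at hF'
  refine commutator_le_of_FullR (nondeg h2) (by rw [Module.finrank_fintype_fun_eq_card]; omega) hF hF' ?_
  rw [polar_Q0, add_dotProduct, smul_dotProduct, neg_dotProduct_neg, hdd, e_dot, Pi.neg_apply, smul_eq_mul, zero_add]
  have : (2 : F) * (2 * d i * -d i) = -(2 * 2 * (d i * d i)) := by ring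
  rw [this]
  exact neg_ne_zero.2 (mul_ne_zero (mul_ne_zero h2 h2) (mul_ne_zero hi hi))

end Cfsg.Agent.SmallDim.Fr
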