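import Cfsg.Agent.SmallDim.Fr.A7
import Cfsg.Agent.SmallDim.Fr.F
import Cfsg.Agent.H92.FrDd
import Cfsg.Agent.H2.FrE2c
import Cfsg.Agent.H6.FrM

/-!
# Orthogonal frames: the dichotomy
-/

set_option autoImplicit false
set_option linter.unusedSectionVars false
set_option linter.unusedVariables false

namespace Cfsg.Agent.SmallDim.Fr

open QuadraticMap Module Cfsg.Agent.Orth Cfsg.Agent.GeoMax.Ort
open Matrix

variable {F : Type*} [Field F] {ι : Type} [Fintype ι] [DecidableEq ι]

theorem light_of_three [Fintype F] (hp : (Fintype.card F).Prime) (hn : 10 ≤ Fintype.card ι)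
    {M : Subgroup (OGrp (Q0 F ι))} (hM : Base M) (J : Finset ι) (hJ : J.card = 3)
    (hex : ∃ g ∈ M, Fix J g ∧ ¬ Mon g) : Light M :=
  light_of_three_aux hp hn (fun h3 G hdet h4 hreg => mon_of_regular hM.two h3 G hdet h4 hreg) hM J hJ hex

/-- **the dichotomy**: a subgroup containing the even monomial group and no reflection is monomial or
contains the commutator subgroup of the full isometry group -/
theorem dichotomy [Fintype F] (hp : (Fintype.card F).Prime) (hn : 10 ≤ Fintype.card ι)
    {M : Subgroup (OGrp (Q0 F ι))} (hM : Base M) (hnr : ∀ u : ι → F, u ⬝ᵥ u ≠ 0 → rf u ∉ M) :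
    (∀ g ∈ M, Mon g) ∨ commutator (OGrp (Q0 F ι)) ≤ M := by
  classical
  by_cases hL : Light M
  · exact Or.inr (full_of_light hp hn hM hL)
  left
  have key : ∀ n : ℕ, ∀ J : Finset ι, J.card = n → ∀ g ∈ M, Fix J g → Mon g := by
    intro n
    induction n using Nat.strong_induction_on with
    | _ n ih =>
      intro J hJ
      have hst : ∀ j ∈ J, ∀ g ∈ M, Fix J g → g (e j) = e j → Mon g := by
        intro j hj g hg hfix hgj
        have hc := Finset.card_erase_lt_of_mem hj
        refine ih _ (by omega) (J.erase j) rfl g hg ?_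
        intro i hi
        by_cases hij : i = j
        · subst hij; exact hgj
        · exact hfix i fun h => hi (Finset.mem_erase.2 ⟨hij, h⟩)
      rcases Nat.lt_or_ge J.card 4 with h4 | h4
      · obtain ⟨J', hJJ', -, hJ'⟩ := Finset.exists_subsuperset_card_eq (Finset.subset_univ J)
          (show J.card ≤ 3 by omega) (by rw [Finset.card_univ]; omega)
        intro g hg hfix
        by_contra hgm
        exact hL (light_of_three hp hn hM J' hJ' ⟨g, hg, hfix.mono hJJ', hgm⟩)
      · rcases Nat.lt_or_ge J.card 5 with h5 | h5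
        · intro g hg hfix
          by_contra hgm
          exact hL (Cfsg.Agent.H92.FrD.light_of_four hp hn hM J (by omega) hst ⟨g, hg, hfix, hgm⟩)
        · by_cases hb : ∃ b, b ∉ J
          · obtain ⟨b, hb⟩ := hb
            exact mon_of_ge_five hM J h5 hb hst
          · push Not at hb
            intro g hg _
            refine ASet.mon ⟨hM, hn, hnr, ?_⟩ g hg
            intro j g hg hgj
            exact hst j (hb j) g hg (fun i hi => absurd (hb i) hi) hgj
  intro g hg
  exact key _ Finset.univ rfl g hg (fun i hi => absurd (Finset.mem_univ i) hi)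

end Cfsg.Agent.SmallDim.Fr
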