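import Cfsg.Agent.SmallDim.Fr.O2
import Cfsg.Agent.H30.FrF7
import Cfsg.Agent.H92.FrD7
import Cfsg.Agent.H2.FrE3
import Cfsg.Agent.H92.FrT

/-!
# Orthogonal frames: the dichotomy in odd dimension `≥ 7`
-/

set_option autoImplicit false
set_option linter.unusedSectionVars false
set_option linter.unusedVariables false

namespace Cfsg.Agent.SmallDim.Fr

open QuadraticMap Module Cfsg.Agent.Orth Cfsg.Agent.GeoMax.Ort
open Matrix

variable {F : Type*} [Field F] {ι : Type} [Fintype ι] [DecidableEq ι]

/-- **the dichotomy** in odd dimension `≥ 7` -/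
theorem dichotomy_odd [Fintype F] (hp : (Fintype.card F).Prime) (hn : 7 ≤ Fintype.card ι)
    (ho : Odd (Fintype.card ι)) {M : Subgroup (OGrp (Q0 F ι))} (hM : Base M) :
    (∀ g ∈ M, Mon g) ∨ commutator (OGrp (Q0 F ι)) ≤ M := by
  classical
  by_cases hL : Light M
  · exact Or.inr (Cfsg.Agent.H30.Fr7.full_of_light7 hp hn hM hL)
  left
  have key : ∀ n : ℕ, ∀ J : Finset ι, J.card = n → ∀ g ∈ M, Fix J g → Mon g := by
    intro n
    induction n using Nat.strong_induction_on with
    | _ n ih =>
      intro J hJ
      have hst : ∀ j ∈ J, ∀ g ∈ M, Fix J g → g (e j) = e j → Mon g := by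
        intro j hj g hg hfix hgj
        have hc := Finset.card_erase_lt_of_mem hj
        refine ih _ (by omega) (J.erase j) rfl g hg ?_
        intro i hi
        by_cases hij : i = j
        · subst hij; exact hgj
        · exact hfix i fun h => hi (Finset.mem_erase.2 ⟨hij, h⟩)
      rcases Nat.lt_or_ge J.card 4 with h4 | h4
      · obtain ⟨J', hJJ', -, hJ'⟩ := Finset.exists_subsuperset_card_eq (Finset.subset_univ J)
          (show J.card ≤ 3 by omega) (by rw [Finset.card_univ]; omega)
        intro g hg hfix
        by_contra hgm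
        exact hL (light_of_three_low hp (by omega) hM J' hJ' ⟨g, hg, hfix.mono hJJ', hgm⟩)
      · rcases Nat.lt_or_ge J.card 5 with h5 | h5
        · intro g hg hfix
          by_contra hgm
          exact hL (Cfsg.Agent.H92.FrD.light_of_four7 hp hn hM J (by omega) hst ⟨g, hg, hfix, hgm⟩)
        · by_cases hb : ∃ b, b ∉ J
          · obtain ⟨b, hb⟩ := hb
            exact mon_of_ge_five hM J h5 hb hst
          · push Not at hb
            intro g hg _
            refine OSet.mon ⟨hM, hn, ho, ?_⟩ g hg
            intro j g hg hgj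
            exact hst j (hb j) g hg (fun i hi => absurd (hb i) hi) hgj
  intro g hg
  exact key _ Finset.univ rfl g hg (fun i hi => absurd (Finset.mem_univ i) hi)

end Cfsg.Agent.SmallDim.Fr

namespace Cfsg.Agent.SmallDim.Fr

open Cfsg.Geo

/-- **maximality of frame stabilisers in odd dimension `≥ 7`** -/
theorem frame_geo_odd {F : Type*} [Field F] [Fintype F] {ι : Type} [Fintype ι] [DecidableEq ι]
    (hprime : (Fintype.card F).Prime) (hodd : Odd (Fintype.card F))
    (hcard : 7 ≤ Fintype.card ι) (ho : Odd (Fintype.card ι)) (Q : (ι → F) → F)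
    (hQ : IsNondegenerateQuadraticForm Q) {t : ℕ} (D : Fin t → Submodule F (ι → F))
    (hD : IsOrthogonalMDecomposition Q 1 D) :
    IsMaximalIn (omegaGL Q) (decompositionStabilizer D ⊓ omegaGL Q) := by
  classical
  exact Cfsg.Agent.H92.FrT.frame_geo_of7 (fun M hM hr => dichotomy_odd hprime
    (by rw [Fintype.card_fin]; exact hcard) (by rw [Fintype.card_fin]; exact ho) hM) Q hQ hodd hcard D hD

end Cfsg.Agent.SmallDim.Fr
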