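import Cfsg.Agent.SmallDim.Fr.B

/-!
# Orthogonal frames: the bireflection case (A), part 1
-/

set_option autoImplicit false
set_option linter.unusedSectionVars false
set_option linter.unusedVariables false

namespace Cfsg.Agent.SmallDim.Fr

open QuadraticMap Module Cfsg.Agent.Orth Cfsg.Agent.GeoMax.Ort
open Matrix

variable {F : Type*} [Field F] {ι : Type} [Fintype ι] [DecidableEq ι]

/-- the setting of (A) -/
structure ASet (M : Subgroup (OGrp (Q0 F ι))) : Prop where
  base : Base M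
  card : 10 ≤ Fintype.card ι
  noref : ∀ u : ι → F, u ⬝ᵥ u ≠ 0 → rf u ∉ M
  st : ∀ j, ∀ g ∈ M, g (e j) = e j → Mon g

/-- the sign change `e i ↦ -e i`, `e j ↦ -e j` -/
noncomputable def sg (i j : ι) : OGrp (Q0 F ι) := rf (e i) * rf (e j)

theorem exists_ne_two (hn : 10 ≤ Fintype.card ι) (i j : ι) : ∃ k : ι, k ≠ i ∧ k ≠ j := by
  obtain ⟨k, -, h⟩ := exists_third (J := (Finset.univ : Finset ι)) (by rw [Finset.card_univ]; omega) i j
  exact ⟨k, h⟩

theorem sg_i (i j : ι) (hij : i ≠ j) : (sg i j : OGrp (Q0 F ι)) (e i) = -e i := by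
  have h1 : (rf (e j) : OGrp (Q0 F ι)) (e i) = e i := rf_e_of_zero (by simp [e, hij])
  rw [sg, mul_ap, h1, rf_e_self]

theorem sg_j (i j : ι) (hij : i ≠ j) : (sg i j : OGrp (Q0 F ι)) (e j) = -e j := by
  rw [sg, mul_ap, rf_e_self, ap_neg, rf_e_of_zero (by simp [e, hij])]

theorem sg_of_zero {i j : ι} {v : ι → F} (hi : v i = 0) (hj : v j = 0) : (sg i j : OGrp (Q0 F ι)) v = v := by
  rw [sg, mul_ap, rf_e_of_zero hj, rf_e_of_zero hi]

theorem Mon_sg (i j : ι) : Mon (sg i j : OGrp (Q0 F ι)) := (Mon_rf_e i).mul (Mon_rf_e j)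

theorem sg_ap {i j : ι} (hij : i ≠ j) (v : ι → F) :
    (sg i j : OGrp (Q0 F ι)) v = v - (2 * v i) • e i - (2 * v j) • e j := by
  rw [sg, mul_ap, rf_ap1 (e_dot_e_self j), rf_ap1 (e_dot_e_self i), dot_e, dot_e]
  simp only [Pi.sub_apply, Pi.smul_apply, smul_eq_mul]
  rw [show (e j : ι → F) i = 0 by simp [e, hij]]
  rw [mul_zero, sub_zero]
  abel

theorem sg_mul_self (i j : ι) : (sg i j : OGrp (Q0 F ι)) * sg i j = 1 := by
  by_cases hij : i = j
  · subst hij; rw [sg, rf_mul_self, one_mul]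
  · refine ext_e fun k => ?_
    rw [mul_ap, one_ap]
    by_cases hk : k = i
    · subst hk; rw [sg_i _ _ hij, ap_neg, sg_i _ _ hij, neg_neg]
    · by_cases hk' : k = j
      · subst hk'; rw [sg_j _ _ hij, ap_neg, sg_j _ _ hij, neg_neg]
      · have : (e k : ι → F) i = 0 ∧ (e k : ι → F) j = 0 := by simp [e, Ne.symm hk, Ne.symm hk']
        rw [sg_of_zero this.1 this.2, sg_of_zero this.1 this.2]

theorem sg_conj (g : OGrp (Q0 F ι)) (i j : ι) : g * sg i j * g⁻¹ = rf (g (e i)) * rf (g (e j)) := by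
  rw [← rf_conj, ← rf_conj, sg]; group

theorem cyc_conj (g : OGrp (Q0 F ι)) (i j k : ι) :
    g * cyc i j k * g⁻¹ = rf (g (e i - e j)) * rf (g (e j - e k)) := by
  rw [← rf_conj, ← rf_conj, cyc]; group

section
variable {M : Subgroup (OGrp (Q0 F ι))}

theorem ASet.P1 (hM : ASet M) {g : OGrp (Q0 F ι)} (hg : g ∈ M) {i j : ι} (h : g (e i) = e j ∨ g (e i) = -e j) :
    Mon g := by
  have h2 := hM.base.two
  have key : ∀ g ∈ M, g (e i) = e j → Mon g := by
    intro g hg h
    by_cases hij : i = j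
    · subst hij; exact hM.st i g hg h
    · obtain ⟨k, hki, hkj⟩ := exists_ne_two hM.card i j
      have hc := hM.base.cyc_mem (Ne.symm hij) hki.symm
      have h1 : Mon (cyc j i k * g) := by
        refine hM.st i _ (M.mul_mem hc hg) ?_
        rw [mul_ap, h, cyc_i h2 (Ne.symm hij) hkj.symm hki.symm]
      have h4 : g = (cyc j i k)⁻¹ * (cyc j i k * g) := by group
      rw [h4]
      exact ((Mon_cyc h2 (Ne.symm hij) hki.symm).inv h2).mul h1
  rcases h with h | h
  · exact key g hg h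
  · obtain ⟨k, hkj, -⟩ := exists_ne_two hM.card j j
    have h1 : Mon (sg j k * g) := by
      refine key _ (M.mul_mem (hM.base.ee j k) hg) ?_
      rw [mul_ap, h, ap_neg, sg_i _ _ hkj.symm, neg_neg]
    have h4 : g = (sg j k)⁻¹ * (sg j k * g) := by group
    rw [h4]
    exact ((Mon_sg j k).inv h2).mul h1

end

/-! ### a dimension count -/

theorem dim_count (g : OGrp (Q0 F ι)) (i : ι) (B T : Finset ι) (hi : i ∉ B)
    (h : ∀ j ∈ B, ∀ d, d ∉ T → (g (e i) - g (e j)) d = 0) : B.card ≤ T.card := by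
  classical
  let φ : (B → F) →ₗ[F] (ι → F) :=
    { toFun := fun c => ∑ j : B, c j • (e i - e j.1 : ι → F)
      map_add' := fun c d => by simp only [Pi.add_apply, add_smul, Finset.sum_add_distrib]
      map_smul' := fun a c => by simp only [Pi.smul_apply, smul_eq_mul, mul_smul, Finset.smul_sum, RingHom.id_apply] }
  have hφ : ∀ c, ∀ j : B, φ c j.1 = -c j := by
    intro c j
    change (∑ k : B, c k • (e i - e k.1 : ι → F)) j.1 = -c j
    rw [Finset.sum_apply, Finset.sum_eq_single j]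
    · have : j.1 ≠ i := fun h => hi (h ▸ j.2)
      simp [e, this]
    · intro k _ hkj
      have h1 : j.1 ≠ i := fun h => hi (h ▸ j.2)
      have h3 : j.1 ≠ k.1 := fun h => hkj (Subtype.ext h.symm)
      simp [e, h1, h3]
    · intro h; exact absurd (Finset.mem_univ _) h
  let ψ : (B → F) →ₗ[F] (T → F) :=
    (LinearMap.funLeft F F (fun t : T => t.1)).comp (((g : (ι → F) ≃ₗ[F] (ι → F)) : (ι → F) →ₗ[F] (ι → F)).comp φ)
  have hψ : Function.Injective ψ := by
    rw [← LinearMap.ker_eq_bot, LinearMap.ker_eq_bot']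
    intro c hc
    have h0 : g (φ c) = 0 := by
      funext d
      by_cases hd : d ∈ T
      · exact congrFun hc ⟨d, hd⟩
      · have h1 : g (φ c) = ∑ j : B, c j • (g (e i) - g (e j.1)) := by
          change g (∑ j : B, c j • (e i - e j.1 : ι → F)) = _
          rw [map_sum]
          refine Finset.sum_congr rfl fun j _ => ?_
          rw [map_smul, map_sub]
        rw [h1, Finset.sum_apply]
        refine Finset.sum_eq_zero fun j _ => ?_
        rw [Pi.smul_apply, h j.1 j.2 d hd, smul_zero]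
    have h1 : φ c = 0 := by
      apply ap_inj g
      rw [h0]; exact (map_zero _).symm
    funext j
    have := hφ c j
    rw [h1, Pi.zero_apply] at this
    rw [Pi.zero_apply, ← neg_eq_zero, ← this]
  have := LinearMap.finrank_le_finrank_of_injective hψ
  rwa [Module.finrank_fintype_fun_eq_card, Module.finrank_fintype_fun_eq_card, Fintype.card_coe, Fintype.card_coe] at this

/-! ### roots -/

theorem Rt_iff {v : ι → F} : Rt v ↔ ∃ s t : ι, s ≠ t ∧ ∃ α β : F, (α = 1 ∨ α = -1) ∧ (β = 1 ∨ β = -1) ∧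
    v = α • e s + β • e t := by
  constructor
  · rintro ⟨s, t, hst, h⟩
    rcases h with h | h | h | h
    · exact ⟨s, t, hst, 1, 1, Or.inl rfl, Or.inl rfl, by rw [h, one_smul, one_smul]⟩
    · exact ⟨s, t, hst, 1, -1, Or.inl rfl, Or.inr rfl, by rw [h, one_smul, neg_one_smul, sub_eq_add_neg]⟩
    · exact ⟨s, t, hst, -1, 1, Or.inr rfl, Or.inl rfl, by rw [h, one_smul, neg_one_smul]⟩
    · exact ⟨s, t, hst, -1, -1, Or.inr rfl, Or.inr rfl, by rw [h, neg_one_smul, neg_one_smul, sub_eq_add_neg]⟩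
  · rintro ⟨s, t, hst, α, β, hα, hβ, h⟩
    refine ⟨s, t, hst, ?_⟩
    rcases hα with rfl | rfl <;> rcases hβ with rfl | rfl <;>
      simp only [one_smul, neg_one_smul, ← sub_eq_add_neg] at h <;> simp [h]

theorem Rt_neg {v : ι → F} (h : Rt v) : Rt (-v) := by
  obtain ⟨s, t, hst, h⟩ := h
  refine ⟨s, t, hst, ?_⟩
  rcases h with h | h | h | h <;> rw [h]
  · right; right; right; abel
  · right; right; left; abel
  · right; left; abel
  · left; abel

/-- a vector of norm two supported on two coordinates with equal absolute values -/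
theorem Rt_of_smul {v : ι → F} (h2 : (2 : F) ≠ 0) (hv : v ⬝ᵥ v = 2) {s t : ι} (hst : s ≠ t) {x δ : F}
    (hδ : δ = 1 ∨ δ = -1) (h : v = x • (e s + δ • e t)) : Rt v := by
  have h1 : (e s + δ • e t : ι → F) ⬝ᵥ (e s + δ • e t) = 2 := by
    rw [add_dotProduct, dotProduct_add, dotProduct_add, smul_dotProduct, smul_dotProduct, dotProduct_smul,
      dotProduct_smul, e_dot_e_self, e_dot_e_self, e_dot_e_ne hst, e_dot_e_ne hst.symm]
    rcases hδ with rfl | rfl <;> simp <;> norm_num
  rw [h, smul_dotProduct, dotProduct_smul, h1] at hv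
  simp only [smul_eq_mul] at hv
  have h3 : (2 : F) * ((x - 1) * (x + 1)) = 0 := by linear_combination hv
  rw [Rt_iff]
  rcases mul_eq_zero.1 ((mul_eq_zero.1 h3).resolve_left h2) with h4 | h4
  · refine ⟨s, t, hst, 1, δ, Or.inl rfl, hδ, ?_⟩
    rw [h, sub_eq_zero.1 h4, one_smul, one_smul]
  · refine ⟨s, t, hst, -1, -δ, Or.inr rfl, ?_, ?_⟩
    · rcases hδ with rfl | rfl
      · right; rfl
      · left; rw [neg_neg]
    · rw [h, eq_neg_of_add_eq_zero_left h4, neg_one_smul, neg_one_smul, neg_smul, neg_add]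

end Cfsg.Agent.SmallDim.Fr
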