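import Cfsg.Agent.SmallDim.Fr.A1

/-!
# Orthogonal frames: the bireflection case (A), part 2: the key lemma `L3`
-/

set_option autoImplicit false
set_option linter.unusedSectionVars false
set_option linter.unusedVariables false

namespace Cfsg.Agent.SmallDim.Fr

open QuadraticMap Module Cfsg.Agent.Orth Cfsg.Agent.GeoMax.Ort
open Matrix

variable {F : Type*} [Field F] {ι : Type} [Fintype ι] [DecidableEq ι]

theorem pm_mul {x y : F} (hx : x = 1 ∨ x = -1) (hy : y = 1 ∨ y = -1) : x * y = 1 ∨ x * y = -1 := by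
  rcases hx with rfl | rfl <;> rcases hy with rfl | rfl <;> simp

theorem pm_ne {x : F} (hx : x = 1 ∨ x = -1) : x ≠ 0 := by
  rcases hx with rfl | rfl
  · exact one_ne_zero
  · exact neg_ne_zero.2 one_ne_zero

theorem pm_sq {x : F} (hx : x = 1 ∨ x = -1) : x * x = 1 := by
  rcases hx with rfl | rfl <;> simp

/-- monomial isometries in scalar form -/
theorem Mon.smul_form {g : OGrp (Q0 F ι)} (hg : Mon g) (i : ι) : ∃ j, ∃ α : F, (α = 1 ∨ α = -1) ∧ g (e i) = α • e j := by
  obtain ⟨j, hj | hj⟩ := hg i
  · exact ⟨j, 1, Or.inl rfl, by rw [hj, one_smul]⟩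
  · exact ⟨j, -1, Or.inr rfl, by rw [hj, neg_one_smul]⟩

theorem norm_two (h2 : (2 : F) ≠ 0) (g : OGrp (Q0 F ι)) {i j : ι} (hij : i ≠ j) :
    (g (e i) - g (e j)) ⬝ᵥ (g (e i) - g (e j)) = 2 := by
  rw [← ap_sub, OGrp_self, sub_e_self hij]

/-- the structure of a monomial conjugate of a 3-cycle: `f_i - f_j` is supported on three coordinates
and lies in an `A₂`-plane -/
theorem cyc_struct (h2 : (2 : F) ≠ 0) (g : OGrp (Q0 F ι)) {i j k : ι} (hij : i ≠ j) (hik : i ≠ k) (hjk : j ≠ k)
    (hy : Mon (g * cyc i j k * g⁻¹)) :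
    ∃ a b c : ι, a ≠ b ∧ a ≠ c ∧ b ≠ c ∧ ∃ β γ : F, (β = 1 ∨ β = -1) ∧ (γ = 1 ∨ γ = -1) ∧
      ∀ v ∈ Submodule.span F ({g (e i - e j), g (e j - e k)} : Set (ι → F)),
        ∃ x z : F, v = x • (e a - β • e b) + z • (β • e b - γ • e c) := by
  set y := g * cyc i j k * g⁻¹ with hydef
  set P := Submodule.span F ({g (e i - e j), g (e j - e k)} : Set (ι → F)) with hP
  have hPfin : finrank F P ≤ 2 := by
    classical
    have h5 := finrank_span_finset_le_card (R := F) ({g (e i - e j), g (e j - e k)} : Finset (ι → F))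
    rw [Finset.coe_pair] at h5
    exact h5.trans Finset.card_le_two
  have hyP : ∀ v, v - y v ∈ P := by
    intro v
    rw [hydef, cyc_conj]
    have : v - (rf (g (e i - e j)) * rf (g (e j - e k)) : OGrp (Q0 F ι)) v
        = (v - rf (g (e j - e k)) v) + (rf (g (e j - e k)) v - rf (g (e i - e j)) (rf (g (e j - e k)) v)) := by
      rw [mul_ap]; abel
    rw [this]
    exact P.add_mem (rf_sub_mem _ _ _ (Submodule.subset_span (by simp)))
      (rf_sub_mem _ _ _ (Submodule.subset_span (by simp)))
  have hc3 : (cyc i j k : OGrp (Q0 F ι)) * (cyc i j k * cyc i j k) = 1 := by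
    refine ext_e fun l => ?_
    rw [mul_ap, mul_ap, one_ap]
    by_cases hl : l = i
    · subst hl; rw [cyc_i h2 hij hik hjk, cyc_j h2 hij hik hjk, cyc_k h2 hij hik hjk]
    · by_cases hl' : l = j
      · subst hl'; rw [cyc_j h2 hij hik hjk, cyc_k h2 hij hik hjk, cyc_i h2 hij hik hjk]
      · by_cases hl'' : l = k
        · subst hl''; rw [cyc_k h2 hij hik hjk, cyc_i h2 hij hik hjk, cyc_j h2 hij hik hjk]
        · have hz : ∀ m, m ≠ l → (e l : ι → F) m = 0 := fun m hm => by simp [e, hm]
          have := cyc_of_zero (F := F) h2 hij hjk (hz i (Ne.symm hl)) (hz j (Ne.symm hl')) (hz k (Ne.symm hl''))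
          rw [this, this, this]
  have hy3 : ∀ v, y (y (y v)) = v := by
    intro v
    rw [← mul_ap, ← mul_ap, hydef]
    have : g * cyc i j k * g⁻¹ * (g * cyc i j k * g⁻¹) * (g * cyc i j k * g⁻¹) = 1 := by
      calc _ = g * (cyc i j k * (cyc i j k * cyc i j k)) * g⁻¹ := by group
        _ = 1 := by rw [hc3]; group
    rw [this, one_ap]
  -- `y` moves some line
  have hex : ∃ a, ∀ α : F, y (e a) ≠ α • e a := by
    by_contra hcon
    push Not at hcon
    have hy1 : y = 1 := by
      refine ext_e fun a => ?_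
      obtain ⟨α, hα⟩ := hcon a
      have hα3 : α * α * α = 1 := by
        have h := hy3 (e a)
        rw [hα, ap_smul, hα, ap_smul, ap_smul, hα, smul_smul, smul_smul] at h
        have := congrFun h a
        simp [e] at this
        linear_combination this
      have hα1 : α * α = 1 := by
        have h := OGrp_self y (e a)
        rw [hα, smul_dotProduct, dotProduct_smul, e_dot_e_self] at h
        simpa using h
      have : α = 1 := by rw [hα1, one_mul] at hα3; exact hα3
      rw [hα, this, one_smul, one_ap]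
    have : (cyc i j k : OGrp (Q0 F ι)) = 1 := by
      calc cyc i j k = g⁻¹ * y * g := by rw [hydef]; group
        _ = 1 := by rw [hy1]; group
    have h := cyc_i (F := F) h2 hij hik hjk
    rw [this, one_ap] at h
    exact hij (e_inj h)
  obtain ⟨a, ha⟩ := hex
  obtain ⟨b, β, hβ, hab⟩ := hy.smul_form a
  have hne_ab : a ≠ b := by rintro rfl; exact ha β hab
  obtain ⟨c, γ', hγ', hbc⟩ := hy.smul_form b
  have hyy : y (β • e b) = (β * γ') • e c := by rw [ap_smul, hbc, smul_smul]
  have hβγ := pm_mul hβ hγ'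
  have hne_bc : b ≠ c := by
    rintro rfl
    have h3 := hy3 (e a)
    rw [hab, hyy, ap_smul, hbc, smul_smul] at h3
    have := congrFun h3 a
    simp [e, hne_ab] at this
  have hne_ac : a ≠ c := by
    rintro rfl
    have h3 := hy3 (e a)
    rw [hab, hyy, ap_smul, hab, smul_smul] at h3
    have := congrFun h3 a
    simp [e, hne_ab] at this
  refine ⟨a, b, c, hne_ab, hne_ac, hne_bc, β, β * γ', hβ, hβγ, ?_⟩
  have hu1 : (e a - β • e b : ι → F) ∈ P := by rw [← hab]; exact hyP _
  have hu2 : (β • e b - (β * γ') • e c : ι → F) ∈ P := by rw [← hyy]; exact hyP _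
  -- they span `P`
  have hspan : Submodule.span F ({e a - β • e b, β • e b - (β * γ') • e c} : Set (ι → F)) = P := by
    refine Submodule.eq_of_le_of_finrank_le ?_ ?_
    · rw [Submodule.span_le]
      rintro x (rfl | hx)
      · exact hu1
      · rw [Set.mem_singleton_iff] at hx; subst hx; exact hu2
    · refine hPfin.trans ?_
      have hli : LinearIndependent F ![(e a - β • e b : ι → F), β • e b - (β * γ') • e c] := by
        rw [LinearIndependent.pair_iff]
        intro s t hst
        have e1 := congrFun hst a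
        have e3 := congrFun hst c
        simp [e, hne_ab, hne_ac, hne_bc] at e1 e3
        refine ⟨e1, ?_⟩
        rcases e3 with h | h
        · exact h
        · exact absurd h (by
            have := pm_ne hβγ
            simpa using this)
      have := finrank_span_eq_card hli
      rw [Fintype.card_fin, Matrix.range_cons, Matrix.range_cons, Matrix.range_empty, Set.union_empty] at this
      rw [Set.insert_eq, this]
  intro v hv
  rw [← hspan] at hv
  obtain ⟨x, z, hxz⟩ := Submodule.mem_span_pair.1 hv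
  exact ⟨x, z, hxz.symm⟩

end Cfsg.Agent.SmallDim.Fr
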