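import Cfsg.Agent.SmallDim.Fr.A2

/-!
# Orthogonal frames: the bireflection case (A), part 3: `L3`, `P3`, `F1`
-/

set_option autoImplicit false
set_option linter.unusedSectionVars false
set_option linter.unusedVariables false

namespace Cfsg.Agent.SmallDim.Fr

open QuadraticMap Module Cfsg.Agent.Orth Cfsg.Agent.GeoMax.Ort
open Matrix

variable {F : Type*} [Field F] {ι : Type} [Fintype ι] [DecidableEq ι]

/-- coordinates of `x (e a - β e b) + z (β e b - γ e c)` -/
theorem coord_struct {a b c : ι} (hab : a ≠ b) (hac : a ≠ c) (hbc : b ≠ c) {β γ x z : F} {v : ι → F}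
    (hv : v = x • (e a - β • e b) + z • (β • e b - γ • e c)) :
    v a = x ∧ v b = β * (z - x) ∧ v c = -(γ * z) ∧ ∀ d, d ≠ a → d ≠ b → d ≠ c → v d = 0 := by
  subst hv
  refine ⟨?_, ?_, ?_, ?_⟩
  · simp [e, hab, hac]
  · simp [e, hab, hab.symm, hbc]; ring
  · simp [e, hac, hac.symm, hbc, hbc.symm]; ring
  · intro d h1 h3 h4
    simp [e, h1, h3, h4]

theorem root_or_full (h2 : (2 : F) ≠ 0) {a b c : ι} (hab : a ≠ b) (hac : a ≠ c) (hbc : b ≠ c) {β γ x z : F}
    (hβ : β = 1 ∨ β = -1) (hγ : γ = 1 ∨ γ = -1) {v : ι → F} (hvv : v ⬝ᵥ v = 2)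
    (hv : v = x • (e a - β • e b) + z • (β • e b - γ • e c)) :
    Rt v ∨ (v a ≠ 0 ∧ v b ≠ 0 ∧ v c ≠ 0) := by
  obtain ⟨ha, hb, hc, -⟩ := coord_struct hab hac hbc hv
  have hnβ : (-β = 1 ∨ -β = -1) := by rcases hβ with rfl | rfl <;> simp
  have hnγ : (-γ = 1 ∨ -γ = -1) := by rcases hγ with rfl | rfl <;> simp
  by_cases hx : x = 0
  · left
    have hβγ : (-(β * γ) = 1 ∨ -(β * γ) = -1) := by
      rcases pm_mul hβ hγ with h | h <;> rw [h] <;> simp
    refine Rt_of_smul h2 hvv hbc (x := z * β) (δ := -(β * γ)) hβγ ?_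
    rw [hv, hx, zero_smul, zero_add, mul_smul]
    congr 1
    rw [smul_add, smul_smul]
    have : β * -(β * γ) = -γ := by rw [mul_neg, ← mul_assoc, pm_sq hβ, one_mul]
    rw [this, neg_smul, sub_eq_add_neg]
  · by_cases hz : z = 0
    · left
      refine Rt_of_smul h2 hvv hab (x := x) (δ := -β) hnβ ?_
      rw [hv, hz, zero_smul, add_zero, neg_smul, sub_eq_add_neg]
    · by_cases hxz : z - x = 0
      · left
        refine Rt_of_smul h2 hvv hac (x := x) (δ := -γ) hnγ ?_
        rw [hv, sub_eq_zero.1 hxz]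
        module
      · right
        refine ⟨by rw [ha]; exact hx, ?_, ?_⟩
        · rw [hb]; exact mul_ne_zero (pm_ne hβ) hxz
        · rw [hc]; exact neg_ne_zero.2 (mul_ne_zero (pm_ne hγ) hz)

theorem diff_root (h2 : (2 : F) ≠ 0) (g : OGrp (Q0 F ι)) (A : Finset ι) (h6 : 6 ≤ A.card)
    (hc : ∀ i ∈ A, ∀ j ∈ A, ∀ k ∈ A, i ≠ j → i ≠ k → j ≠ k → Mon (g * cyc i j k * g⁻¹))
    {i j : ι} (hi : i ∈ A) (hj : j ∈ A) (hij : i ≠ j) : Rt (g (e i) - g (e j)) := by
  classical
  by_contra hnR
  obtain ⟨k0, hk0, hk0i, hk0j⟩ := exists_third (by omega : 3 ≤ A.card) i j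
  have hvv := norm_two h2 g hij
  obtain ⟨a, b, c, hab, hac, hbc, β, γ, hβ, hγ, hst⟩ := cyc_struct h2 g hij hk0i.symm hk0j.symm
    (hc i hi j hj k0 hk0 hij hk0i.symm hk0j.symm)
  obtain ⟨x, z, hxz⟩ := hst (g (e i) - g (e j)) (by rw [← ap_sub]; exact Submodule.subset_span (by simp))
  rcases root_or_full h2 hab hac hbc hβ hγ hvv hxz with h | ⟨hva, hvb, hvc⟩
  · exact hnR h
  have hT : ({a, b, c} : Finset ι).card = 3 := by
    rw [Finset.card_insert_of_notMem (by simp [hab, hac]), Finset.card_insert_of_notMem (by simp [hbc]),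
      Finset.card_singleton]
  have hdc := dim_count g j (A.erase j) {a, b, c} (Finset.notMem_erase j A) ?_
  · rw [hT, Finset.card_erase_of_mem hj] at hdc
    omega
  intro k hk d hd
  simp only [Finset.mem_insert, Finset.mem_singleton, not_or] at hd
  obtain ⟨hkj, hkA⟩ := Finset.mem_erase.1 hk
  by_cases hki : k = i
  · subst hki
    have h4 := (coord_struct hab hac hbc hxz).2.2.2 d hd.1 hd.2.1 hd.2.2
    rw [Pi.sub_apply] at h4 ⊢
    linear_combination -h4
  · obtain ⟨a', b', c', hab', hac', hbc', β', γ', hβ', hγ', hst'⟩ := cyc_struct h2 g hij (Ne.symm hki) (Ne.symm hkj)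
      (hc i hi j hj k hkA hij (Ne.symm hki) (Ne.symm hkj))
    obtain ⟨x', z', hxz'⟩ := hst' (g (e i) - g (e j)) (by rw [← ap_sub]; exact Submodule.subset_span (by simp))
    obtain ⟨x'', z'', hxz''⟩ := hst' (g (e j) - g (e k)) (by rw [← ap_sub]; exact Submodule.subset_span (by simp))
    have hz' := (coord_struct hab' hac' hbc' hxz').2.2.2
    have hsub : ({a, b, c} : Finset ι) ⊆ {a', b', c'} := by
      intro q hq
      by_contra hcon
      simp only [Finset.mem_insert, Finset.mem_singleton, not_or] at hq hcon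
      have h0 := hz' q hcon.1 hcon.2.1 hcon.2.2
      rcases hq with rfl | rfl | rfl
      · exact hva h0
      · exact hvb h0
      · exact hvc h0
    have hT' : ({a', b', c'} : Finset ι).card = 3 := by
      rw [Finset.card_insert_of_notMem (by simp [hab', hac']), Finset.card_insert_of_notMem (by simp [hbc']),
        Finset.card_singleton]
    have heq := Finset.eq_of_subset_of_card_le hsub (by rw [hT, hT'])
    have hd' : d ∉ ({a', b', c'} : Finset ι) := by
      rw [← heq]; simp [hd]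
    simp only [Finset.mem_insert, Finset.mem_singleton, not_or] at hd'
    exact (coord_struct hab' hac' hbc' hxz'').2.2.2 d hd'.1 hd'.2.1 hd'.2.2

/-- orthogonal unit vectors `f, f'` in the span of `e s`, `e t` whose difference is a root are `± e s`, `± e t` -/
theorem L3 (h2 : (2 : F) ≠ 0) (g : OGrp (Q0 F ι)) (A : Finset ι) (h6 : 6 ≤ A.card)
    (hs : ∀ i ∈ A, ∀ j ∈ A, i ≠ j → Mon (g * sg i j * g⁻¹))
    (hc : ∀ i ∈ A, ∀ j ∈ A, ∀ k ∈ A, i ≠ j → i ≠ k → j ≠ k → Mon (g * cyc i j k * g⁻¹)) :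
    ∃ i ∈ A, ∃ a, g (e i) = e a ∨ g (e i) = -e a := by
  classical
  by_contra hcon
  push Not at hcon
  obtain ⟨i, hi⟩ : A.Nonempty := Finset.card_pos.1 (by omega)
  have hfi : (g (e i)) ⬝ᵥ (g (e i)) = 1 := by rw [OGrp_self, e_dot_e_self]
  obtain ⟨j0, hj0, hj0i, -⟩ := exists_third (by omega : 3 ≤ A.card) i i
  -- the support of `g (e i)` has at most four elements
  set S := Finset.univ.filter (fun a => (g (e i)) a ≠ 0) with hS
  have hScard : S.card ≤ 4 := by
    have hm := hs i hi j0 hj0 hj0i.symm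
    rw [sg_conj] at hm
    refine (Finset.card_le_card ?_).trans (card_mv_rf_mul h2 hm)
    intro a ha
    simp only [hS, Finset.mem_filter, Finset.mem_univ, true_and] at ha
    by_contra hna
    rw [not_mem_mv] at hna
    have h1 := sub_apply_eq_zero h2 hna (g (e i))
    have h3 : (rf (g (e j0)) : OGrp (Q0 F ι)) (g (e i)) = g (e i) :=
      rf_ortho (by rw [OGrp_dot h2, e_dot_e_ne hj0i.symm])
    rw [mul_ap, h3, rf_self (by rw [hfi]; exact one_ne_zero), sub_neg_eq_add, Pi.add_apply] at h1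
    apply ha
    have : (2 : F) * (g (e i)) a = 0 := by linear_combination h1
    exact (mul_eq_zero.1 this).resolve_left h2
  have hdc := dim_count g i (A.erase i) S (Finset.notMem_erase i A) ?_
  · rw [Finset.card_erase_of_mem hi] at hdc
    omega
  intro j hj d hd
  obtain ⟨hji, hjA⟩ := Finset.mem_erase.1 hj
  have hR := diff_root h2 g A h6 hc hi hjA (Ne.symm hji)
  rw [Rt_iff] at hR
  obtain ⟨s, t, hst, α, β, hα, hβ, hv⟩ := hR
  have hfj : (g (e j)) ⬝ᵥ (g (e j)) = 1 := by rw [OGrp_self, e_dot_e_self]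
  have hfij : (g (e i)) ⬝ᵥ (g (e j)) = 0 := by rw [OGrp_dot h2, e_dot_e_ne (Ne.symm hji)]
  -- the involution
  have hx := hs i hi j hjA (Ne.symm hji)
  set x := g * sg i j * g⁻¹ with hxdef
  have hxi : x (g (e i)) = -g (e i) := by
    rw [hxdef, mul_ap, mul_ap, inv_ap_self, sg_i _ _ (Ne.symm hji), ap_neg]
  have hxj : x (g (e j)) = -g (e j) := by
    rw [hxdef, mul_ap, mul_ap, inv_ap_self, sg_j _ _ (Ne.symm hji), ap_neg]
  have hxv : x (α • e s + β • e t) = -(α • e s + β • e t) := by
    rw [← hv, ap_sub, hxi, hxj]; abel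
  obtain ⟨p, ρ, hρ, hsp⟩ := hx.smul_form s
  obtain ⟨q, σ, hσ, htq⟩ := hx.smul_form t
  rw [ap_add, ap_smul, ap_smul, hsp, htq, smul_smul, smul_smul] at hxv
  have hpq : p ≠ q := by
    rintro rfl
    have h1 := OGrp_dot h2 x (e s) (e t)
    rw [hsp, htq, smul_dotProduct, dotProduct_smul, e_dot_e_self, e_dot_e_ne hst] at h1
    simp only [smul_eq_mul, mul_one] at h1
    exact mul_ne_zero (pm_ne hρ) (pm_ne hσ) h1
  have hps : p = s ∨ p = t := by
    by_contra hcon'
    push Not at hcon'
    have h1 := congrFun hxv p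
    simp [e, hpq, hcon'.1, hcon'.2] at h1
    rcases h1 with h1 | h1
    · exact pm_ne hα h1
    · exact pm_ne hρ h1
  rcases hps with rfl | rfl
  · -- `x e_s = ± e_s`: then `x e_s = - e_s`, `x e_t = - e_t`
    have hqt : q = t := by
      by_contra hqt
      have h1 := congrFun hxv t
      simp [e, hst.symm, Ne.symm hqt] at h1
      exact pm_ne hβ h1
    subst hqt
    have h1 := congrFun hxv p
    have h3 := congrFun hxv q
    simp [e, hst, hst.symm] at h1 h3
    have hρ1 : ρ = -1 := by
      have : α * (ρ + 1) = 0 := by linear_combination h1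
      exact eq_neg_of_add_eq_zero_left ((mul_eq_zero.1 this).resolve_left (pm_ne hα))
    have hσ1 : σ = -1 := by
      have : β * (σ + 1) = 0 := by linear_combination h3
      exact eq_neg_of_add_eq_zero_left ((mul_eq_zero.1 this).resolve_left (pm_ne hβ))
    -- `f_i`, `f_j` are in the plane of `e p, e q`
    exfalso
    have hplane : ∀ w : ι → F, x w = -w → ∃ c1 c2 : F, w = c1 • g (e i) + c2 • g (e j) := by
      intro w hw
      have h4 : (sg i j : OGrp (Q0 F ι)) (g⁻¹ w) = -(g⁻¹ w) := by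
        have h5 : g⁻¹ (x w) = (sg i j : OGrp (Q0 F ι)) (g⁻¹ w) := by
          rw [hxdef, mul_ap, mul_ap, inv_ap_self]
        rw [← h5, hw, ap_neg]
      rw [sg_ap (Ne.symm hji)] at h4
      refine ⟨(g⁻¹ w) i, (g⁻¹ w) j, ?_⟩
      have h6 : g⁻¹ w = (g⁻¹ w) i • e i + (g⁻¹ w) j • e j := by
        have h7 : (2 : F) • g⁻¹ w = (2 : F) • ((g⁻¹ w) i • e i + (g⁻¹ w) j • e j) := by
          rw [smul_add, smul_smul, smul_smul, two_smul]
          nth_rewrite 2 [← neg_neg (g⁻¹ w)]
          rw [← h4]; abel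
        exact smul_right_injective _ h2 h7
      conv_lhs => rw [← ap_inv_self g w, h6]
      rw [ap_add, ap_smul, ap_smul]
    obtain ⟨c1, c2, hep⟩ := hplane (e p) (by rw [hsp, hρ1, neg_one_smul])
    obtain ⟨d1, d2, heq⟩ := hplane (e q) (by rw [htq, hσ1, neg_one_smul])
    have hc1 : c1 = (g (e i)) p := by
      have := congrArg (fun w => w ⬝ᵥ g (e i)) hep
      simp only [add_dotProduct, smul_dotProduct, e_dot] at this
      rw [hfi, dotProduct_comm, hfij] at this
      simp at this; exact this.symm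
    have hc2 : c2 = (g (e j)) p := by
      have := congrArg (fun w => w ⬝ᵥ g (e j)) hep
      simp only [add_dotProduct, smul_dotProduct, e_dot] at this
      rw [hfj, hfij] at this
      simp at this; exact this.symm
    have hd1 : d1 = (g (e i)) q := by
      have := congrArg (fun w => w ⬝ᵥ g (e i)) heq
      simp only [add_dotProduct, smul_dotProduct, e_dot] at this
      rw [hfi, dotProduct_comm, hfij] at this
      simp at this; exact this.symm
    have hd2 : d2 = (g (e j)) q := by
      have := congrArg (fun w => w ⬝ᵥ g (e j)) heq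
      simp only [add_dotProduct, smul_dotProduct, e_dot] at this
      rw [hfj, hfij] at this
      simp at this; exact this.symm
    -- norms
    have n1 : c1 * c1 + c2 * c2 = 1 := by
      have := e_dot_e_self (F := F) p
      rw [hep] at this
      simp only [add_dotProduct, dotProduct_add, smul_dotProduct, dotProduct_smul, smul_eq_mul] at this
      rw [hfi, hfj, hfij, dotProduct_comm (g (e j)), hfij] at this
      linear_combination this
    have hpq' : (e p : ι → F) p = 1 ∧ (e p : ι → F) q = 0 ∧ (e q : ι → F) q = 1 ∧ (e q : ι → F) p = 0 := by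
      simp [e, hst, hst.symm]
    have j1 : c1 - c2 = α := by
      rw [hc1, hc2]
      have := congrFun hv p
      simpa [e, hst] using this
    -- `c1 c2 = 0`
    have k1 : c1 * c2 = 0 := by
      have hαα := pm_sq hα
      have : 2 * (c1 * c2) = 0 := by
        linear_combination n1 - (c1 - c2) * j1 - α * j1 - hαα
      exact (mul_eq_zero.1 this).resolve_left h2
    rcases mul_eq_zero.1 k1 with h | h
    · rw [h, zero_smul, zero_add] at hep
      rcases unit_smul_eq (e_dot_e_self p) hfj hep with h' | h'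
      · exact (hcon j hjA p).1 h'.symm
      · exact (hcon j hjA p).2 (by rw [h', neg_neg])
    · rw [h, zero_smul, add_zero] at hep
      rcases unit_smul_eq (e_dot_e_self p) hfi hep with h' | h'
      · exact (hcon i hi p).1 h'.symm
      · exact (hcon i hi p).2 (by rw [h', neg_neg])
  · -- `x` swaps the two lines
    have hqs : q = s := by
      by_contra hqs
      have h1 := congrFun hxv s
      simp [e, hst, Ne.symm hqs] at h1
      exact pm_ne hα h1
    subst hqs
    have h1 := congrFun hxv q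
    have h3 := congrFun hxv p
    simp [e, hst, hst.symm] at h1 h3
    -- the coordinates of `f_i`
    have e1 : (g (e i)) q * α = (g (e i)) p * β := by
      have h4 := OGrp_dot h2 x (g (e i)) (e q)
      rw [hxi, hsp, neg_dotProduct, dotProduct_smul, dot_e, dot_e, smul_eq_mul] at h4
      -- `-(ρ f_p) = f_q`, `α ρ = -β`
      have h5 : α * ρ = -β := h3
      linear_combination -α * h4 + (-(g (e i)) p) * h5
    have e3 : (g (e i)) q * α + (g (e i)) p * β = 1 := by
      have h4 := congrArg (fun w => w ⬝ᵥ g (e i)) hv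
      simp only [sub_dotProduct, add_dotProduct, smul_dotProduct, e_dot, smul_eq_mul] at h4
      rw [hfi, dotProduct_comm (g (e j)), hfij] at h4
      linear_combination -h4
    have hq0 : (g (e i)) q ≠ 0 := by
      intro h0
      rw [h0, zero_mul] at e1 e3
      rw [← e1, add_zero] at e3
      exact zero_ne_one e3
    have hp0 : (g (e i)) p ≠ 0 := by
      intro h0
      rw [h0, zero_mul] at e1 e3
      rw [e1, add_zero] at e3
      exact zero_ne_one e3
    have hdq : d ≠ q := by rintro rfl; exact hd (by rw [hS]; exact Finset.mem_filter.2 ⟨Finset.mem_univ _, hq0⟩)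
    have hdp : d ≠ p := by rintro rfl; exact hd (by rw [hS]; exact Finset.mem_filter.2 ⟨Finset.mem_univ _, hp0⟩)
    rw [hv]
    simp [e, hdq, hdp]

section
variable {M : Subgroup (OGrp (Q0 F ι))}

theorem ASet.P3 (hM : ASet M) {g : OGrp (Q0 F ι)} (hg : g ∈ M) {i j : ι} (hij : i ≠ j)
    (h : Mon (g⁻¹ * sg i j * g)) : Mon g := by
  classical
  have h2 := hM.base.two
  set w := g⁻¹ * sg i j * g with hw
  have hw' : w = rf (g⁻¹ (e i)) * rf (g⁻¹ (e j)) := by
    have := sg_conj g⁻¹ i j
    rw [inv_inv] at this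
    rw [hw, this]
  have hcard : (mv w).card ≤ 4 := by
    rw [hw'] at h ⊢; exact card_mv_rf_mul h2 h
  set A := Finset.univ \ mv w with hA
  have hAcard : 6 ≤ A.card := by
    have h7 := Finset.le_card_sdiff (mv w) Finset.univ
    rw [Finset.card_univ, ← hA] at h7
    have := hM.card
    omega
  have hwu : w (g⁻¹ (e i)) = -g⁻¹ (e i) := by
    rw [hw, mul_ap, mul_ap, ap_inv_self, sg_i _ _ hij, ap_neg]
  have hzero : ∀ k ∈ A, (g⁻¹ (e i)) k = 0 := by
    intro k hk
    have hk' : k ∉ mv w := (Finset.mem_sdiff.1 hk).2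
    rw [not_mem_mv] at hk'
    have h1 := OGrp_dot h2 w (g⁻¹ (e i)) (e k)
    rw [hk', hwu, neg_dotProduct, dot_e] at h1
    have h3 : (2 : F) * (g⁻¹ (e i)) k = 0 := by linear_combination -h1
    exact (mul_eq_zero.1 h3).resolve_left h2
  obtain ⟨k, hk, a, ha⟩ := L3 h2 g A hAcard
    (fun k hk l hl hkl => by
      refine hM.st i _ (M.mul_mem (M.mul_mem hg (hM.base.ee k l)) (M.inv_mem hg)) ?_
      rw [mul_ap, mul_ap, sg_of_zero (hzero k hk) (hzero l hl), ap_inv_self])
    (fun k hk l hl m hm hkl hkm hlm => by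
      refine hM.st i _ (M.mul_mem (M.mul_mem hg (hM.base.cyc_mem hkl hlm)) (M.inv_mem hg)) ?_
      rw [mul_ap, mul_ap, cyc_of_zero h2 hkl hlm (hzero k hk) (hzero l hl) (hzero m hm), ap_inv_self])
  exact hM.P1 hg ha

/-- `(F1)`: a column of a non-monomial element has at most one zero -/
theorem ASet.F1 (hM : ASet M) {g : OGrp (Q0 F ι)} (hg : g ∈ M) (hgm : ¬ Mon g) (k : ι) {a b : ι} (hab : a ≠ b)
    (ha : (g (e k)) a = 0) (hb : (g (e k)) b = 0) : False := by
  apply hgm
  refine hM.P3 hg hab ?_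
  refine hM.st k _ (M.mul_mem (M.mul_mem (M.inv_mem hg) (hM.base.ee a b)) hg) ?_
  rw [mul_ap, mul_ap, sg_of_zero ha hb, inv_ap_self]

/-- a column of a non-monomial element is not supported on few coordinates -/
theorem ASet.F1' (hM : ASet M) {g : OGrp (Q0 F ι)} (hg : g ∈ M) (hgm : ¬ Mon g) (k : ι) (T : Finset ι)
    (hT : T.card ≤ 8) (h : ∀ d, d ∉ T → (g (e k)) d = 0) : False := by
  classical
  have : 1 < (Finset.univ \ T).card := by
    have := Finset.le_card_sdiff T Finset.univ
    rw [Finset.card_univ] at this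
    have := hM.card
    omega
  obtain ⟨a, ha, b, hb, hab⟩ := Finset.one_lt_card.1 this
  exact hM.F1 hg hgm k hab (h a (Finset.mem_sdiff.1 ha).2) (h b (Finset.mem_sdiff.1 hb).2)

theorem ASet.not_mon_inv (hM : ASet M) {g : OGrp (Q0 F ι)} (hgm : ¬ Mon g) : ¬ Mon g⁻¹ := by
  intro h
  have := h.inv hM.base.two
  rw [inv_inv] at this
  exact hgm this

end

end Cfsg.Agent.SmallDim.Fr
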