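import Cfsg.Agent.SmallDim.Fr.A3

/-!
# Orthogonal frames: the bireflection case (A), part 4: pairs with product of even order
-/

set_option autoImplicit false
set_option linter.unusedSectionVars false
set_option linter.unusedVariables false

namespace Cfsg.Agent.SmallDim.Fr

open QuadraticMap Module Cfsg.Agent.Orth Cfsg.Agent.GeoMax.Ort
open Matrix

variable {F : Type*} [Field F] {ι : Type} [Fintype ι] [DecidableEq ι]

theorem e_app_self (c : ι) : (e c : ι → F) c = 1 := by simp [e]

theorem e_app_ne {c d : ι} (h : c ≠ d) : (e c : ι → F) d = 0 := by simp [e, h]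

/-- an involution acting trivially on `W ⊇ [V,h]` is trivial -/
theorem eq_one_of_fix (h2 : (2 : F) ≠ 0) {h : OGrp (Q0 F ι)} (hh : h * h = 1) (W : Submodule F (ι → F))
    (hW : ∀ v, v - h v ∈ W) (hfix : ∀ w ∈ W, h w = w) : h = 1 := by
  refine OGrp_ext fun v => ?_
  have h1 := hfix _ (hW v)
  have h3 : h (v - h v) = -(v - h v) := by
    rw [ap_sub, ← mul_ap h h, hh, one_ap, neg_sub]
  rw [h1] at h3
  have h4 : (2 : F) • (v - h v) = 0 := by
    rw [two_smul]
    nth_rewrite 1 [h3]
    exact neg_add_cancel _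
  exact (sub_eq_zero.1 ((smul_eq_zero.1 h4).resolve_left h2)).symm

/-- a vector negated by `x` is supported on the moved coordinates -/
theorem neg_supp (h2 : (2 : F) ≠ 0) {x : OGrp (Q0 F ι)} {u : ι → F} (hu : x u = -u) {d : ι} (hd : d ∉ mv x) :
    u d = 0 := by
  rw [not_mem_mv] at hd
  have h1 := OGrp_dot h2 x u (e d)
  rw [hd, hu, neg_dotProduct, dot_e] at h1
  have h3 : (2 : F) * u d = 0 := by linear_combination -h1
  exact (mul_eq_zero.1 h3).resolve_left h2

theorem span_sub_mem_of_fix {s : Set (ι → F)} {h : OGrp (Q0 F ι)} (hs : ∀ w ∈ s, h w = w) :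
    ∀ w ∈ Submodule.span F s, h w = w := by
  intro w hw
  induction hw using Submodule.span_induction with
  | mem x hx => exact hs x hx
  | zero => exact map_zero _
  | add x y _ _ hx hy => rw [ap_add, hx, hy]
  | smul a x _ hx => rw [ap_smul, hx]

theorem conj_sub_mem (g z : OGrp (Q0 F ι)) (W : Submodule F (ι → F)) (hW : ∀ v, v - z v ∈ W) :
    ∀ v, v - (g⁻¹ * z * g) v ∈ W.map (((g⁻¹ : OGrp (Q0 F ι)) : (ι → F) ≃ₗ[F] (ι → F)) : (ι → F) →ₗ[F] (ι → F)) := by
  intro v
  refine ⟨g v - z (g v), hW (g v), ?_⟩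
  change g⁻¹ (g v - z (g v)) = _
  rw [ap_sub, inv_ap_self]; rfl

theorem card_mv_conj (h2 : (2 : F) ≠ 0) (g z : OGrp (Q0 F ι)) (hz : Mon (g⁻¹ * z * g)) (W : Submodule F (ι → F))
    (hW : ∀ v, v - z v ∈ W) : (mv (g⁻¹ * z * g)).card ≤ 2 * finrank F W := by
  refine (card_mv_le h2 hz _ (conj_sub_mem g z W hW)).trans ?_
  exact Nat.mul_le_mul_left 2 (Submodule.finrank_map_le _ _)

/-- a monomial isometry commuting with `sg i j` acts on `{± e i, ± e j}` -/
theorem comm_sg (h2 : (2 : F) ≠ 0) {z : OGrp (Q0 F ι)} (hz : Mon z) {i j : ι} (hij : i ≠ j)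
    (hc : z * sg i j * z⁻¹ = sg i j) (hne : z (e i) ≠ -e i) :
    z (e i) = e i ∨ ∃ ε : F, (ε = 1 ∨ ε = -1) ∧ z (e i) = ε • e j := by
  obtain ⟨a, α, hα, ha⟩ := hz.smul_form i
  have hc' : z * sg i j = sg i j * z := by
    calc z * sg i j = (z * sg i j * z⁻¹) * z := by group
      _ = sg i j * z := by rw [hc]
  have h1 : (sg i j : OGrp (Q0 F ι)) (z (e i)) = -z (e i) := by
    rw [← mul_ap, ← hc', mul_ap, sg_i _ _ hij, ap_neg]
  by_cases hai : a = i
  · subst hai
    rcases hα with rfl | rfl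
    · left; rw [ha, one_smul]
    · exfalso; apply hne; rw [ha, neg_one_smul]
  · by_cases haj : a = j
    · subst haj; exact Or.inr ⟨α, hα, ha⟩
    · exfalso
      rw [ha, ap_smul, sg_of_zero (by simp [e, Ne.symm hai]) (by simp [e, Ne.symm haj])] at h1
      have h3 := congrFun h1 a
      simp [e] at h3
      have h4 : (2 : F) * α = 0 := by linear_combination h3
      exact pm_ne hα ((mul_eq_zero.1 h4).resolve_left h2)

theorem sg_symm {i j : ι} (hij : i ≠ j) : (sg i j : OGrp (Q0 F ι)) = sg j i := by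
  refine OGrp_ext fun v => ?_
  rw [sg_ap hij, sg_ap hij.symm]; abel

/-- the action of an involution on the pair -/
theorem pair_action (h2 : (2 : F) ≠ 0) {z : OGrp (Q0 F ι)} (hz : Mon z) (hzz : z * z = 1) {i j : ι} (hij : i ≠ j)
    (hc : z * sg i j * z⁻¹ = sg i j) (hne : z (e i) ≠ -e i) (hne' : z (e j) ≠ -e j) :
    (z (e i) = e i ∧ z (e j) = e j) ∨ ∃ ε : F, (ε = 1 ∨ ε = -1) ∧ z (e i) = ε • e j ∧ z (e j) = ε • e i := by
  rcases comm_sg h2 hz hij hc hne with h | ⟨ε, hε, h⟩
  · left
    refine ⟨h, ?_⟩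
    rcases comm_sg h2 hz hij.symm (by rw [← sg_symm hij]; exact hc) hne' with h' | ⟨ε, hε, h'⟩
    · exact h'
    · exfalso
      have : z (e j) = z (ε • e i) := by rw [h', ap_smul, h]
      have h3 := congrFun (ap_inj z this) j
      simp [e, hij.symm] at h3
  · right
    refine ⟨ε, hε, h, ?_⟩
    have h3 : z (z (e i)) = e i := by rw [← mul_ap, hzz, one_ap]
    rw [h, ap_smul] at h3
    calc z (e j) = (ε * ε) • z (e j) := by rw [pm_sq hε, one_smul]
      _ = ε • (ε • z (e j)) := by rw [mul_smul]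
      _ = ε • e i := by rw [h3]

theorem norm_sub_smul {u v : ι → F} (hu : u ⬝ᵥ u = 1) (hv : v ⬝ᵥ v = 1) (huv : u ⬝ᵥ v = 0) {ε : F}
    (hε : ε = 1 ∨ ε = -1) : (u - ε • v) ⬝ᵥ (u - ε • v) = 2 := by
  rw [sub_dotProduct, dotProduct_sub, dotProduct_sub, smul_dotProduct, smul_dotProduct, dotProduct_smul,
    dotProduct_smul, hu, hv, huv, dotProduct_comm v u, huv]
  simp only [smul_eq_mul, mul_zero, mul_one, sub_zero, zero_sub]
  have := pm_sq hε
  linear_combination this

/-- an involution negating `u - ε v`, swapping `u` and `ε v` and trivial on the rest of `W` is a reflection -/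
theorem eq_rf (h2 : (2 : F) ≠ 0) {z : OGrp (Q0 F ι)} (hzz : z * z = 1) {u v : ι → F} (hu : u ⬝ᵥ u = 1)
    (hv : v ⬝ᵥ v = 1) (huv : u ⬝ᵥ v = 0) {ε : F} (hε : ε = 1 ∨ ε = -1) (h1 : z u = ε • v) (h3 : z v = ε • u)
    {a b : ι → F} (ha : z a = a) (hb : z b = b)
    (hW : ∀ x, x - z x ∈ Submodule.span F ({a, b, u, v} : Set (ι → F))) : z = rf (u - ε • v) := by
  have hεε := pm_sq hε
  set ρ := u - ε • v with hρ
  have hρρ : ρ ⬝ᵥ ρ = 2 := norm_sub_smul hu hv huv hε
  have hρ0 : ρ ⬝ᵥ ρ ≠ 0 := by rw [hρρ]; exact h2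
  have hzρ : z ρ = -ρ := by
    rw [hρ, ap_sub, ap_smul, h1, h3, smul_smul, hεε, one_smul]; abel
  have hzi : z⁻¹ = z := inv_eq_of_mul_eq_one_left hzz
  have hcomm : z * rf ρ = rf ρ * z := by
    have := rf_conj z ρ
    rw [hzρ, rf_neg] at this
    calc z * rf ρ = (z * rf ρ * z⁻¹) * z := by group
      _ = rf ρ * z := by rw [this]
  have hh : (z * rf ρ) * (z * rf ρ) = 1 := by
    calc (z * rf ρ) * (z * rf ρ) = z * (rf ρ * z) * rf ρ := by group
      _ = z * (z * rf ρ) * rf ρ := by rw [hcomm]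
      _ = (z * z) * (rf ρ * rf ρ) := by group
      _ = 1 := by rw [hzz, rf_mul_self, one_mul]
  have horth : ∀ x, z x = x → x ⬝ᵥ ρ = 0 := by
    intro x hx
    have := OGrp_dot h2 z x ρ
    rw [hx, hzρ, dotProduct_neg] at this
    have h4 : (2 : F) * (x ⬝ᵥ ρ) = 0 := by linear_combination -this
    exact (mul_eq_zero.1 h4).resolve_left h2
  have huρ : u ⬝ᵥ ρ = 1 := by rw [hρ, dotProduct_sub, dotProduct_smul, hu, huv, smul_zero, sub_zero]
  have hvρ : v ⬝ᵥ ρ = -ε := by
    rw [hρ, dotProduct_sub, dotProduct_smul, hv, dotProduct_comm, huv, smul_eq_mul, mul_one, zero_sub]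
  have hru : rf ρ u = ε • v := by
    rw [rf_ap hρ0, hρρ, huρ, mul_one, inv_mul_cancel₀ h2, one_smul, hρ]; abel
  have hrv : rf ρ v = ε • u := by
    rw [rf_ap hρ0, hρρ, hvρ, ← mul_assoc, inv_mul_cancel₀ h2, one_mul, neg_smul, sub_neg_eq_add, hρ, smul_sub,
      smul_smul, hεε, one_smul]; abel
  have key : z * rf ρ = 1 := by
    refine eq_one_of_fix h2 hh (Submodule.span F ({a, b, u, v} : Set (ι → F))) ?_ (span_sub_mem_of_fix ?_)
    · intro x
      have : x - (z * rf ρ) x = (x - rf ρ x) + (rf ρ x - z (rf ρ x)) := by rw [mul_ap]; abel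
      rw [this]
      refine Submodule.add_mem _ (rf_sub_mem _ _ _ ?_) (hW _)
      rw [hρ]
      exact Submodule.sub_mem _ (Submodule.subset_span (by simp))
        (Submodule.smul_mem _ _ (Submodule.subset_span (by simp)))
    · intro w hw
      simp only [Set.mem_insert_iff, Set.mem_singleton_iff] at hw
      rcases hw with rfl | rfl | rfl | rfl
      · rw [mul_ap, rf_ortho (horth _ ha), ha]
      · rw [mul_ap, rf_ortho (horth _ hb), hb]
      · rw [mul_ap, hru, ap_smul, h3, smul_smul, hεε, one_smul]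
      · rw [mul_ap, hrv, ap_smul, h1, smul_smul, hεε, one_smul]
  calc z = (z * rf ρ) * rf ρ := by rw [mul_assoc, rf_mul_self, mul_one]
    _ = rf ρ := by rw [key, one_mul]

section
variable {M : Subgroup (OGrp (Q0 F ι))}

/-- `(F3)`: structure of pairs with product of even order -/
theorem ASet.bad [Finite F] (hM : ASet M) {g : OGrp (Q0 F ι)} (hg : g ∈ M) (hgm : ¬ Mon g) {i j k l : ι}
    (hij : i ≠ j) (hkl : k ≠ l) (h : ¬ Odd (orderOf (sg i j * (g * sg k l * g⁻¹)))) :
    ∃ ε : F, (ε = 1 ∨ ε = -1) ∧ (∃ T : Finset ι, T.card ≤ 4 ∧ ∀ d, d ∉ T → (g⁻¹ (e i - ε • e j)) d = 0) ∧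
      (((g⁻¹ (e i - ε • e j)) k ≠ 0 ∧ (g⁻¹ (e i - ε • e j)) l ≠ 0) ∨ Rt (g⁻¹ (e i - ε • e j))) := by
  classical
  have h2 := hM.base.two
  set s := (sg i j : OGrp (Q0 F ι)) with hs
  set s' := g * sg k l * g⁻¹ with hs'
  have hsM : s ∈ M := hM.base.ee i j
  have hsM' : s' ∈ M := M.mul_mem (M.mul_mem hg (hM.base.ee k l)) (M.inv_mem hg)
  have hss : s * s = 1 := sg_mul_self i j
  have hss' : s' * s' = 1 := by
    calc s' * s' = g * (sg k l * sg k l) * g⁻¹ := by rw [hs']; group
      _ = 1 := by rw [sg_mul_self]; group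
  obtain ⟨z, hz, hz1, hzz, hzs, hzs'⟩ := exists_central hss hss' h (orderOf_pos _).ne'
  have hzM : z ∈ M := by
    refine (Subgroup.closure_le M).2 ?_ hz
    rintro x (rfl | hx)
    · exact hsM
    · rw [Set.mem_singleton_iff] at hx; subst hx; exact hsM'
  have hzi : z⁻¹ = z := inv_eq_of_mul_eq_one_left hzz
  -- `z` is monomial with respect to both frames
  have hzm : Mon z := by
    refine hM.P3 hzM hij ?_
    have : z⁻¹ * sg i j * z = sg i j := by
      rw [hzi]; rw [hzi] at hzs; exact hzs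
    rw [this]; exact Mon_sg i j
  set z' := g⁻¹ * z * g with hz'
  have hzM' : z' ∈ M := M.mul_mem (M.mul_mem (M.inv_mem hg) hzM) hg
  have hzz' : z' * z' = 1 := by
    calc z' * z' = g⁻¹ * (z * z) * g := by rw [hz']; group
      _ = 1 := by rw [hzz]; group
  have hzi' : z'⁻¹ = z' := inv_eq_of_mul_eq_one_left hzz'
  have hcz' : z' * sg k l * z'⁻¹ = sg k l := by
    calc z' * sg k l * z'⁻¹ = g⁻¹ * (z * (g * sg k l * g⁻¹) * z⁻¹) * g := by rw [hz']; group
      _ = g⁻¹ * (g * sg k l * g⁻¹) * g := by rw [← hs', hzs']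
      _ = sg k l := by group
  have hzm' : Mon z' := by
    refine hM.P3 hzM' hkl ?_
    have : z'⁻¹ * sg k l * z' = sg k l := by
      rw [hzi'] at hcz' ⊢; exact hcz'
    rw [this]; exact Mon_sg k l
  have hz'ap : ∀ v, z' v = g⁻¹ (z (g v)) := fun v => by rw [hz', mul_ap, mul_ap]
  have hzg : ∀ v, z (g v) = g (z' v) := fun v => by rw [hz'ap, ap_inv_self]
  -- the commutator space
  set W := Submodule.span F ({e i, e j, g (e k), g (e l)} : Set (ι → F)) with hW
  have hWz : ∀ v, v - z v ∈ W := by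
    refine closure_sub_mem W ?_ ?_ hz
    · intro v
      have : v - s v = (v - (rf (e j) : OGrp (Q0 F ι)) v) + ((rf (e j) : OGrp (Q0 F ι)) v -
          (rf (e i) : OGrp (Q0 F ι)) ((rf (e j) : OGrp (Q0 F ι)) v)) := by rw [hs, sg, mul_ap]; abel
      rw [this]
      exact W.add_mem (rf_sub_mem _ _ _ (Submodule.subset_span (by simp)))
        (rf_sub_mem _ _ _ (Submodule.subset_span (by simp)))
    · intro v
      have : v - s' v = (v - rf (g (e l)) v) + (rf (g (e l)) v - rf (g (e k)) (rf (g (e l)) v)) := by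
        rw [hs', sg_conj, mul_ap]; abel
      rw [this]
      exact W.add_mem (rf_sub_mem _ _ _ (Submodule.subset_span (by simp)))
        (rf_sub_mem _ _ _ (Submodule.subset_span (by simp)))
  have hWfin : finrank F W ≤ 4 := by
    have h5 := finrank_span_finset_le_card (R := F) ({e i, e j, g (e k), g (e l)} : Finset (ι → F))
    have h6 : (({e i, e j, g (e k), g (e l)} : Finset (ι → F)) : Set (ι → F)) = {e i, e j, g (e k), g (e l)} := by
      simp
    rw [h6] at h5
    exact h5.trans Finset.card_le_four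
  have hmv : (mv z).card ≤ 8 := (card_mv_le h2 hzm W hWz).trans (by omega)
  have hmv' : (mv z').card ≤ 8 := (card_mv_conj h2 g z hzm' W hWz).trans (by omega)
  -- no `e` is negated
  have hno : ∀ c, z (e c) ≠ -e c := by
    intro c hc
    have h3 : z' (g⁻¹ (e c)) = -g⁻¹ (e c) := by rw [hz'ap, ap_inv_self, hc, ap_neg]
    exact hM.F1' (M.inv_mem hg) (hM.not_mon_inv hgm) c (mv z') hmv' fun d hd => neg_supp h2 h3 hd
  have hno' : ∀ c, z' (e c) ≠ -e c := by
    intro c hc
    have h3 : z (g (e c)) = -g (e c) := by rw [hzg, hc, ap_neg]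
    exact hM.F1' hg hgm c (mv z) hmv fun d hd => neg_supp h2 h3 hd
  have hu : ∀ c : ι, (g (e c)) ⬝ᵥ (g (e c)) = 1 := fun c => by rw [OGrp_self, e_dot_e_self]
  have huv : (g (e k)) ⬝ᵥ (g (e l)) = 0 := by rw [OGrp_dot h2, e_dot_e_ne hkl]
  rcases pair_action h2 hzm hzz hij hzs (hno i) (hno j) with ⟨a1, a2⟩ | ⟨ε, hε, a1, a2⟩
  · exfalso
    rcases pair_action h2 hzm' hzz' hkl hcz' (hno' k) (hno' l) with ⟨b1, b2⟩ | ⟨δ, hδ, b1, b2⟩
    · apply hz1
      refine eq_one_of_fix h2 hzz W hWz (span_sub_mem_of_fix ?_)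
      intro w hw
      simp only [Set.mem_insert_iff, Set.mem_singleton_iff] at hw
      rcases hw with rfl | rfl | rfl | rfl
      · exact a1
      · exact a2
      · rw [hzg, b1]
      · rw [hzg, b2]
    · have c1 : z (g (e k)) = δ • g (e l) := by rw [hzg, b1, ap_smul]
      have c2 : z (g (e l)) = δ • g (e k) := by rw [hzg, b2, ap_smul]
      have := eq_rf h2 hzz (hu k) (hu l) huv hδ c1 c2 a1 a2 hWz
      rw [this] at hzM
      exact hM.noref _ (by rw [norm_sub_smul (hu k) (hu l) huv hδ]; exact h2) hzM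
  · rcases pair_action h2 hzm' hzz' hkl hcz' (hno' k) (hno' l) with ⟨b1, b2⟩ | ⟨δ, hδ, b1, b2⟩
    · exfalso
      have c1 : z (g (e k)) = g (e k) := by rw [hzg, b1]
      have c2 : z (g (e l)) = g (e l) := by rw [hzg, b2]
      have hset : ({g (e k), g (e l), e i, e j} : Set (ι → F)) = {e i, e j, g (e k), g (e l)} := by
        ext x; simp only [Set.mem_insert_iff, Set.mem_singleton_iff]; tauto
      have := eq_rf h2 hzz (e_dot_e_self i) (e_dot_e_self j) (e_dot_e_ne hij) hε a1 a2 c1 c2
        (by rw [hset]; exact hWz)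
      rw [this] at hzM
      exact hM.noref _ (by
        rw [norm_sub_smul (e_dot_e_self i) (e_dot_e_self j) (e_dot_e_ne hij) hε]; exact h2) hzM
    · -- the main case
      have c1 : z (g (e k)) = δ • g (e l) := by rw [hzg, b1, ap_smul]
      have c2 : z (g (e l)) = δ • g (e k) := by rw [hzg, b2, ap_smul]
      set ρ := (e i - ε • e j : ι → F) with hρ
      set ρ' := (g (e k) - δ • g (e l) : ι → F) with hρ'
      have hzρ : z ρ = -ρ := by rw [hρ, ap_sub, ap_smul, a1, a2, smul_smul, pm_sq hε, one_smul]; abel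
      have hρρ : ρ ⬝ᵥ ρ = 2 := norm_sub_smul (e_dot_e_self i) (e_dot_e_self j) (e_dot_e_ne hij) hε
      -- the commutator space is the span of `ρ`, `ρ'`
      have hW2 : ∀ v, v - z v ∈ Submodule.span F ({ρ, ρ'} : Set (ι → F)) := by
        intro v
        have hw := hWz v
        set w := v - z v with hwdef
        have hzw : z w = -w := by rw [hwdef, ap_sub, ← mul_ap z z, hzz, one_ap, neg_sub]
        rw [hW, Submodule.mem_span_insert] at hw
        obtain ⟨x1, w1, hw1, e1⟩ := hw
        rw [Submodule.mem_span_insert] at hw1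
        obtain ⟨x2, w2, hw2, e2⟩ := hw1
        obtain ⟨x3, x4, e3⟩ := Submodule.mem_span_pair.1 hw2
        have hwe : w = x1 • e i + (x2 • e j + (x3 • g (e k) + x4 • g (e l))) := by rw [e1, e2, e3]
        have hzwe : z w = x1 • (ε • e j) + (x2 • (ε • e i) + (x3 • (δ • g (e l)) + x4 • (δ • g (e k)))) := by
          rw [hwe, ap_add, ap_add, ap_add, ap_smul, ap_smul, ap_smul, ap_smul, a1, a2, c1, c2]
        have h22 : (2 : F) • w = (x1 - ε * x2) • ρ + (x3 - δ * x4) • ρ' := by
          have h7 : (2 : F) • w = w - z w := by rw [hzw, two_smul]; abel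
          rw [h7, hzwe, hwe, hρ, hρ']
          have hεε := pm_sq hε
          have hδδ := pm_sq hδ
          have q1 : ((x1 - ε * x2) * ε) = x1 * ε - x2 := by linear_combination (-x2) * hεε
          have q2 : ((x3 - δ * x4) * δ) = x3 * δ - x4 := by linear_combination (-x4) * hδδ
          have qA : (x1 - ε * x2) • (e i - ε • e j : ι → F) = (x1 - ε * x2) • e i - (x1 * ε - x2) • e j := by
            rw [smul_sub, smul_smul, q1]
          have qB : (x3 - δ * x4) • (g (e k) - δ • g (e l)) = (x3 - δ * x4) • g (e k) - (x3 * δ - x4) • g (e l) := by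
            rw [smul_sub, smul_smul, q2]
          rw [qA, qB]
          module
        have h8 : w = (2 : F)⁻¹ • ((x1 - ε * x2) • ρ + (x3 - δ * x4) • ρ') := by
          rw [← h22, smul_smul, inv_mul_cancel₀ h2, one_smul]
        rw [h8]
        exact Submodule.smul_mem _ _ (Submodule.add_mem _ (Submodule.smul_mem _ _ (Submodule.subset_span (by simp)))
          (Submodule.smul_mem _ _ (Submodule.subset_span (by simp))))
      have hT4 : (mv z').card ≤ 4 := by
        refine (card_mv_conj h2 g z hzm' _ hW2).trans ?_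
        have h5 := finrank_span_finset_le_card (R := F) ({ρ, ρ'} : Finset (ι → F))
        rw [Finset.coe_pair] at h5
        have h9 : finrank F (Submodule.span F ({ρ, ρ'} : Set (ι → F))) ≤ 2 := h5.trans Finset.card_le_two
        omega
      have hz'ρ : z' (g⁻¹ ρ) = -g⁻¹ ρ := by rw [hz'ap, ap_inv_self, hzρ, ap_neg]
      have hsupp : ∀ d, d ∉ mv z' → (g⁻¹ ρ) d = 0 := fun d hd => neg_supp h2 hz'ρ hd
      refine ⟨ε, hε, ⟨mv z', hT4, hsupp⟩, ?_⟩
      -- relation between coordinates
      have hrel : ∀ c d θ, z' (e c) = θ • e d → (g⁻¹ ρ) c = -(θ * (g⁻¹ ρ) d) := by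
        intro c d θ hcd
        have h5 := OGrp_dot h2 z' (g⁻¹ ρ) (e c)
        rw [hcd, hz'ρ, neg_dotProduct, dotProduct_smul, dot_e, dot_e, smul_eq_mul] at h5
        exact h5.symm
      have hk := hrel k l δ b1
      have hl := hrel l k δ b2
      by_cases hk0 : (g⁻¹ ρ) k = 0
      · right
        have hl0 : (g⁻¹ ρ) l = 0 := by rw [hl, hk0, mul_zero, neg_zero]
        have hnorm : (g⁻¹ ρ) ⬝ᵥ (g⁻¹ ρ) = 2 := by rw [OGrp_self]; exact hρρ
        obtain ⟨c, hc⟩ : ∃ c, (g⁻¹ ρ) c ≠ 0 := by
          by_contra hcon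
          push Not at hcon
          have h0 : g⁻¹ ρ = 0 := funext hcon
          rw [h0, zero_dotProduct] at hnorm
          exact h2 hnorm.symm
        have hck : c ≠ k := by rintro rfl; exact hc hk0
        have hcl : c ≠ l := by rintro rfl; exact hc hl0
        have hcT : c ∈ mv z' := by
          by_contra hcT; exact hc (hsupp c hcT)
        obtain ⟨d, θ, hθ, hcd⟩ := hzm'.smul_form c
        have hdc : d ≠ c := by
          rintro rfl
          rcases hθ with rfl | rfl
          · rw [one_smul] at hcd; exact (mem_mv.1 hcT) hcd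
          · rw [neg_one_smul] at hcd; exact hno' _ hcd
        have hdc' : z' (e d) = θ • e c := by
          have h5 : z' (z' (e c)) = e c := by rw [← mul_ap, hzz', one_ap]
          rw [hcd, ap_smul] at h5
          calc z' (e d) = (θ * θ) • z' (e d) := by rw [pm_sq hθ, one_smul]
            _ = θ • (θ • z' (e d)) := by rw [mul_smul]
            _ = θ • e c := by rw [h5]
        have hdk : d ≠ k := by
          rintro rfl
          have h5 := congrFun (b1.symm.trans hdc') c
          simp [e, hcl] at h5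
          exact pm_ne hθ h5.symm
        have hdl : d ≠ l := by
          rintro rfl
          have h5 := congrFun (b2.symm.trans hdc') c
          simp [e, hck] at h5
          exact pm_ne hθ h5.symm
        have hmem : ({k, l, c, d} : Finset ι) ⊆ mv z' := by
          intro x hx
          simp only [Finset.mem_insert, Finset.mem_singleton] at hx
          rw [mem_mv]
          intro hxx
          rcases hx with rfl | rfl | rfl | rfl
          · have h5 := congrFun (b1.symm.trans hxx) x
            simp [e, hkl] at h5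
          · have h5 := congrFun (b2.symm.trans hxx) x
            simp [e, hkl.symm] at h5
          · exact (mem_mv.1 hcT) hxx
          · have h5 := congrFun (hdc'.symm.trans hxx) x
            simp [e, hdc] at h5
        have hcard4 : ({k, l, c, d} : Finset ι).card = 4 := by
          rw [Finset.card_insert_of_notMem (by simp [hkl, Ne.symm hck, Ne.symm hdk]),
            Finset.card_insert_of_notMem (by simp [Ne.symm hcl, Ne.symm hdl]),
            Finset.card_insert_of_notMem (by simp [Ne.symm hdc]), Finset.card_singleton]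
        have heq := Finset.eq_of_subset_of_card_le hmem (by rw [hcard4]; exact hT4)
        have hδθ : (-θ = 1 ∨ -θ = -1) := by rcases hθ with rfl | rfl <;> simp
        refine Rt_of_smul h2 hnorm (Ne.symm hdc) (x := (g⁻¹ ρ) c) (δ := -θ) hδθ ?_
        funext x
        by_cases hxc : x = c
        · subst hxc
          rw [Pi.smul_apply, Pi.add_apply, Pi.smul_apply, e_app_self, e_app_ne hdc, smul_zero, add_zero,
            smul_eq_mul, mul_one]
        · by_cases hxd : x = d
          · subst hxd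
            have h5 := hrel x c θ hdc'
            rw [Pi.smul_apply, Pi.add_apply, Pi.smul_apply, e_app_self, e_app_ne (Ne.symm hdc), h5]
            simp only [smul_eq_mul]; ring
          · have hx0 : (g⁻¹ ρ) x = 0 := by
              by_cases hxk : x = k
              · subst hxk; exact hk0
              · by_cases hxl : x = l
                · subst hxl; exact hl0
                · refine hsupp x ?_
                  rw [← heq]; simp [hxk, hxl, hxc, hxd]
            rw [hx0, Pi.smul_apply, Pi.add_apply, Pi.smul_apply, e_app_ne (Ne.symm hxc), e_app_ne (Ne.symm hxd)]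
            simp
      · left
        refine ⟨hk0, fun hl0 => hk0 ?_⟩
        rw [hk, hl0, mul_zero, neg_zero]

end

end Cfsg.Agent.SmallDim.Fr
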