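import Cfsg.Agent.SmallDim.Fr.A4

/-!
# Orthogonal frames: the bireflection case (A), part 5: the non-complete case
-/

set_option autoImplicit false
set_option linter.unusedSectionVars false
set_option linter.unusedVariables false

namespace Cfsg.Agent.SmallDim.Fr

open QuadraticMap Module Cfsg.Agent.Orth Cfsg.Agent.GeoMax.Ort
open Matrix

variable {F : Type*} [Field F] {ι : Type} [Fintype ι] [DecidableEq ι]

section
variable {M : Subgroup (OGrp (Q0 F ι))}

theorem ASet.exists_S [Finite F] (hM : ASet M) {g : OGrp (Q0 F ι)} (hg : g ∈ M) (hgm : ¬ Mon g) {i j : ι}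
    (hij : i ≠ j) (hnR : ∀ ε : F, (ε = 1 ∨ ε = -1) → ¬ Rt (g⁻¹ (e i - ε • e j))) :
    ∃ S : Finset ι, S.card ≤ 4 ∧ ∀ k l, k ≠ l → k ∉ S → Odd (orderOf (sg i j * (g * sg k l * g⁻¹))) := by
  classical
  by_cases hbad : ∃ k l, k ≠ l ∧ ¬ Odd (orderOf (sg i j * (g * sg k l * g⁻¹)))
  · obtain ⟨k0, l0, hkl0, hb0⟩ := hbad
    obtain ⟨ε0, hε0, ⟨T0, hT0, hs0⟩, -⟩ := hM.bad hg hgm hij hkl0 hb0
    refine ⟨T0, hT0, fun k l hkl hk => ?_⟩
    by_contra hb
    obtain ⟨ε, hε, ⟨T, hT, hs⟩, hor⟩ := hM.bad hg hgm hij hkl hb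
    rcases hor with ⟨h1, -⟩ | h1
    · by_cases hεε : ε = ε0
      · subst hεε
        exact h1 (hs0 k hk)
      · -- both signs: `e i` is small
        have hneg : ε = -ε0 := by
          rcases hε with rfl | rfl <;> rcases hε0 with rfl | rfl
          · exact absurd rfl hεε
          · rw [neg_neg]
          · rfl
          · exact absurd rfl hεε
        refine hM.F1' (M.inv_mem hg) (hM.not_mon_inv hgm) i (T0 ∪ T)
          ((Finset.card_union_le _ _).trans (by omega)) fun d hd => ?_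
        rw [Finset.mem_union, not_or] at hd
        have e1 := hs0 d hd.1
        have e3 := hs d hd.2
        rw [hneg] at e3
        rw [ap_sub, ap_smul, Pi.sub_apply, Pi.smul_apply, smul_eq_mul] at e1 e3
        have h4 : (2 : F) * (g⁻¹ (e i)) d = 0 := by linear_combination e1 + e3
        exact (mul_eq_zero.1 h4).resolve_left hM.base.two
    · exact hnR ε hε h1
  · push Not at hbad
    exact ⟨∅, by simp, fun k l hkl _ => hbad k l hkl⟩

/-- the choice of the four indices -/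
theorem ASet.exists_X (hM : ASet M) {g : OGrp (Q0 F ι)} (hg : g ∈ M) (hgm : ¬ Mon g) {i j : ι} (hij : i ≠ j)
    (S : Finset ι) (hS : S.card ≤ 4) :
    ∃ X : Finset ι, X.card = 4 ∧ (∀ x ∈ X, x ∉ S) ∧
      ∀ α β : F, (∀ d, d ∉ X → (g⁻¹ (α • e i + β • e j)) d = 0) → (α • e i + β • e j : ι → F) = 0 := by
  classical
  have hSc : 6 ≤ (Finset.univ \ S).card := by
    have h7 := Finset.le_card_sdiff S Finset.univ
    rw [Finset.card_univ] at h7
    have := hM.card
    omega
  obtain ⟨X0, hX0, hX0c⟩ := Finset.exists_subset_card_eq (show 4 ≤ (Finset.univ \ S).card by omega)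
  by_cases h0 : ∀ α β : F, (∀ d, d ∉ X0 → (g⁻¹ (α • e i + β • e j)) d = 0) → (α • e i + β • e j : ι → F) = 0
  · exact ⟨X0, hX0c, fun x hx => (Finset.mem_sdiff.1 (hX0 hx)).2, h0⟩
  push Not at h0
  obtain ⟨α0, β0, hq0, hq0ne⟩ := h0
  have hex : ∃ b, (g⁻¹ (α0 • e i + β0 • e j)) b ≠ 0 := by
    by_contra hcon
    push Not at hcon
    apply hq0ne
    apply ap_inj g⁻¹
    rw [show g⁻¹ (0 : ι → F) = 0 from map_zero _]
    exact funext hcon
  obtain ⟨b, hb⟩ := hex
  have hSb : 4 ≤ ((Finset.univ \ S).erase b).card := by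
    have := Finset.pred_card_le_card_erase (s := Finset.univ \ S) (a := b)
    omega
  obtain ⟨X1, hX1, hX1c⟩ := Finset.exists_subset_card_eq hSb
  have hb1 : b ∉ X1 := fun h => (Finset.notMem_erase b _) (hX1 h)
  refine ⟨X1, hX1c, fun x hx => (Finset.mem_sdiff.1 (Finset.mem_of_mem_erase (hX1 hx))).2, ?_⟩
  intro α β hq
  by_contra hne
  have lin : ∀ (x y : F) (d : ι), (g⁻¹ (x • e i + y • e j)) d = x * (g⁻¹ (e i)) d + y * (g⁻¹ (e j)) d := by
    intro x y d
    rw [ap_add, ap_smul, ap_smul, Pi.add_apply, Pi.smul_apply, Pi.smul_apply, smul_eq_mul, smul_eq_mul]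
  by_cases hD : α * β0 - β * α0 = 0
  · apply hne
    have hbq := hq b hb1
    rw [lin] at hbq hb
    have h1 : α * (α0 * (g⁻¹ (e i)) b + β0 * (g⁻¹ (e j)) b) = 0 := by
      linear_combination α0 * hbq + (g⁻¹ (e j)) b * hD
    have h3 : β * (α0 * (g⁻¹ (e i)) b + β0 * (g⁻¹ (e j)) b) = 0 := by
      linear_combination β0 * hbq - (g⁻¹ (e i)) b * hD
    rw [(mul_eq_zero.1 h1).resolve_right hb, (mul_eq_zero.1 h3).resolve_right hb, zero_smul, zero_smul, add_zero]
  · refine hM.F1' (M.inv_mem hg) (hM.not_mon_inv hgm) i (X0 ∪ X1)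
      ((Finset.card_union_le _ _).trans (by omega)) fun d hd => ?_
    rw [Finset.mem_union, not_or] at hd
    have e1 := hq0 d hd.1
    have e3 := hq d hd.2
    rw [lin] at e1 e3
    have : (α * β0 - β * α0) * (g⁻¹ (e i)) d = 0 := by linear_combination β0 * e3 - β * e1
    exact (mul_eq_zero.1 this).resolve_left hD

/-- the involution swapping the two planes -/
theorem ASet.swap_t (hM : ASet M) {g : OGrp (Q0 F ι)} (hg : g ∈ M) {i j k l : ι} (hij : i ≠ j) (hkl : k ≠ l)
    (hodd : Odd (orderOf (sg i j * (g * sg k l * g⁻¹)))) :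
    ∃ t ∈ M, t * t = 1 ∧ Mon (g⁻¹ * t) ∧
      (∃ u u' : ι → F, ∀ v, v - t v ∈ Submodule.span F ({u, u'} : Set (ι → F))) ∧
      (∀ v, v - t v ∈ Submodule.span F ({e i, e j, g (e k), g (e l)} : Set (ι → F))) ∧
      ∀ w : ι → F, (sg i j : OGrp (Q0 F ι)) w = -w → (sg k l : OGrp (Q0 F ι)) (g⁻¹ (t w)) = -g⁻¹ (t w) := by
  set s := (sg i j : OGrp (Q0 F ι)) with hs
  set s' := g * sg k l * g⁻¹ with hs'
  have hsM : s ∈ M := hM.base.ee i j
  have hsM' : s' ∈ M := M.mul_mem (M.mul_mem hg (hM.base.ee k l)) (M.inv_mem hg)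
  have hss : s * s = 1 := sg_mul_self i j
  have hss' : s' * s' = 1 := by
    calc s' * s' = g * (sg k l * sg k l) * g⁻¹ := by rw [hs']; group
      _ = 1 := by rw [sg_mul_self]; group
  obtain ⟨r, hr, hr1, hr2⟩ := exists_swap hss hss' hodd
  have hcl : Subgroup.closure ({s, s'} : Set (OGrp (Q0 F ι))) ≤ M := by
    refine (Subgroup.closure_le M).2 ?_
    rintro x (rfl | hx)
    · exact hsM
    · rw [Set.mem_singleton_iff] at hx; subst hx; exact hsM'
  have hrM := hcl hr
  set t := r * s * r⁻¹ with ht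
  have htcl : t ∈ Subgroup.closure ({s, s'} : Set (OGrp (Q0 F ι))) :=
    Subgroup.mul_mem _ (Subgroup.mul_mem _ hr (Subgroup.subset_closure (by simp))) (Subgroup.inv_mem _ hr)
  have htM : t ∈ M := hcl htcl
  have hti : t⁻¹ = t := inv_eq_of_mul_eq_one_left hr1
  refine ⟨t, htM, hr1, ?_, ⟨r (e i), r (e j), ?_⟩, ?_, ?_⟩
  · have h1 : Mon (t * g) := by
      refine hM.P3 (M.mul_mem htM hg) hij ?_
      have : (t * g)⁻¹ * sg i j * (t * g) = sg k l := by
        calc (t * g)⁻¹ * sg i j * (t * g) = g⁻¹ * (t⁻¹ * s * t) * g := by rw [hs]; group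
          _ = g⁻¹ * (t * s * t) * g := by rw [hti]
          _ = g⁻¹ * s' * g := by rw [hr2]
          _ = sg k l := by rw [hs']; group
      rw [this]; exact Mon_sg k l
    have h3 : g⁻¹ * t = (t * g)⁻¹ := by rw [_root_.mul_inv_rev, hti]
    rw [h3]; exact h1.inv hM.base.two
  · intro v
    have ht' : t = rf (r (e i)) * rf (r (e j)) := by rw [ht, hs, sg_conj]
    have : v - t v = (v - rf (r (e j)) v) + (rf (r (e j)) v - rf (r (e i)) (rf (r (e j)) v)) := by
      rw [ht', mul_ap]; abel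
    rw [this]
    exact Submodule.add_mem _ (rf_sub_mem _ _ _ (Submodule.subset_span (by simp)))
      (rf_sub_mem _ _ _ (Submodule.subset_span (by simp)))
  · refine closure_sub_mem _ ?_ ?_ htcl
    · intro v
      have : v - s v = (v - (rf (e j) : OGrp (Q0 F ι)) v) + ((rf (e j) : OGrp (Q0 F ι)) v -
          (rf (e i) : OGrp (Q0 F ι)) ((rf (e j) : OGrp (Q0 F ι)) v)) := by rw [hs, sg, mul_ap]; abel
      rw [this]
      exact Submodule.add_mem _ (rf_sub_mem _ _ _ (Submodule.subset_span (by simp)))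
        (rf_sub_mem _ _ _ (Submodule.subset_span (by simp)))
    · intro v
      have : v - s' v = (v - rf (g (e l)) v) + (rf (g (e l)) v - rf (g (e k)) (rf (g (e l)) v)) := by
        rw [hs', sg_conj, mul_ap]; abel
      rw [this]
      exact Submodule.add_mem _ (rf_sub_mem _ _ _ (Submodule.subset_span (by simp)))
        (rf_sub_mem _ _ _ (Submodule.subset_span (by simp)))
  · intro w hw
    have h1 : s' (t w) = -t w := by
      rw [← hr2, mul_ap, mul_ap, ← mul_ap t t, hr1, one_ap, hw, ap_neg]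
    have h3 : g⁻¹ (s' (t w)) = (sg k l : OGrp (Q0 F ι)) (g⁻¹ (t w)) := by
      rw [hs', mul_ap, mul_ap, inv_ap_self]
    rw [← h3, h1, ap_neg]

/-- a monomial isometry maps roots to roots -/
theorem Mon.rt_sub {g : OGrp (Q0 F ι)} (h2 : (2 : F) ≠ 0) (hg : Mon g) {i j : ι} (hij : i ≠ j) {ε : F}
    (hε : ε = 1 ∨ ε = -1) : Rt (g (e i - ε • e j)) := by
  obtain ⟨a, α, hα, ha⟩ := hg.smul_form i
  obtain ⟨b, β, hβ, hb⟩ := hg.smul_form j
  have hab : a ≠ b := by
    rintro rfl
    have h1 := OGrp_dot h2 g (e i) (e j)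
    rw [ha, hb, smul_dotProduct, dotProduct_smul, e_dot_e_self, e_dot_e_ne hij] at h1
    simp only [smul_eq_mul, mul_one] at h1
    exact mul_ne_zero (pm_ne hα) (pm_ne hβ) h1
  rw [Rt_iff]
  have hn : (-(ε * β) = 1 ∨ -(ε * β) = -1) := by
    rcases pm_mul hε hβ with h | h <;> rw [h] <;> simp
  refine ⟨a, b, hab, α, -(ε * β), hα, hn, ?_⟩
  rw [ap_sub, ap_smul, ha, hb, smul_smul, neg_smul, sub_eq_add_neg]

/-- **the non-complete case** -/
theorem ASet.NC [Finite F] (hM : ASet M) {g : OGrp (Q0 F ι)} (hg : g ∈ M) {i j : ι} (hij : i ≠ j)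
    (hnR : ∀ ε : F, (ε = 1 ∨ ε = -1) → ¬ Rt (g⁻¹ (e i - ε • e j))) : False := by
  classical
  have h2 := hM.base.two
  have hgm : ¬ Mon g := by
    intro h
    exact hnR 1 (Or.inl rfl) ((h.inv h2).rt_sub h2 hij (Or.inl rfl))
  obtain ⟨S, hS, hgood⟩ := hM.exists_S hg hgm hij hnR
  obtain ⟨X, hX4, hXS, hX⟩ := hM.exists_X hg hgm hij S hS
  obtain ⟨k, hk, l, hl, hkl⟩ := Finset.one_lt_card.1 (show 1 < X.card by omega)
  have hX2 : 1 < ((X.erase k).erase l).card := by
    rw [Finset.card_erase_of_mem (Finset.mem_erase.2 ⟨hkl.symm, hl⟩), Finset.card_erase_of_mem hk]; omega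
  obtain ⟨k', hk', l', hl', hkl'⟩ := Finset.one_lt_card.1 hX2
  rw [Finset.mem_erase, Finset.mem_erase] at hk' hl'
  obtain ⟨hk'l, hk'k, hk'X⟩ := hk'
  obtain ⟨hl'l, hl'k, hl'X⟩ := hl'
  obtain ⟨t, htM, htt, htm, ⟨u, u', hu⟩, htW, htn⟩ := hM.swap_t hg hij hkl (hgood k l hkl (hXS k hk))
  obtain ⟨t1, htM1, htt1, htm1, ⟨u1, u1', hu1⟩, htW1, htn1⟩ := hM.swap_t hg hij hkl' (hgood k' l' hkl' (hXS k' hk'X))
  have hti1 : t1⁻¹ = t1 := inv_eq_of_mul_eq_one_left htt1
  have hx : Mon (t1 * t) := by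
    have : t1 * t = (g⁻¹ * t1)⁻¹ * (g⁻¹ * t) := by
      rw [_root_.mul_inv_rev, hti1]; group
    rw [this]; exact (htm1.inv h2).mul htm
  have hcard : (mv (t1 * t)).card ≤ 8 := by
    refine (card_mv_le h2 hx (Submodule.span F ({u1, u1', u, u'} : Set (ι → F))) ?_).trans ?_
    · intro v
      have : v - (t1 * t) v = (v - t v) + (t v - t1 (t v)) := by rw [mul_ap]; abel
      rw [this]
      refine Submodule.add_mem _ (Submodule.span_mono ?_ (hu v)) (Submodule.span_mono ?_ (hu1 (t v)))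
      · intro x hx; simp only [Set.mem_insert_iff, Set.mem_singleton_iff] at hx ⊢; tauto
      · intro x hx; simp only [Set.mem_insert_iff, Set.mem_singleton_iff] at hx ⊢; tauto
    · have h5 := finrank_span_finset_le_card (R := F) ({u1, u1', u, u'} : Finset (ι → F))
      have h6 : (({u1, u1', u, u'} : Finset (ι → F)) : Set (ι → F)) = {u1, u1', u, u'} := by simp
      rw [h6] at h5
      have h9 : finrank F (Submodule.span F ({u1, u1', u, u'} : Set (ι → F))) ≤ 4 := h5.trans Finset.card_le_four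
      omega
  obtain ⟨a, ha⟩ : ∃ a, a ∉ mv (t1 * t) := by
    by_contra hcon
    push Not at hcon
    have := Finset.card_le_card (show Finset.univ ⊆ mv (t1 * t) from fun x _ => hcon x)
    rw [Finset.card_univ] at this
    have := hM.card
    omega
  rw [not_mem_mv, mul_ap] at ha
  have hta : t (e a) = t1 (e a) := by
    have := congrArg (fun v => t1 v) ha
    rw [← mul_ap t1 t1, htt1, one_ap] at this
    exact this
  set v0 := e a - t (e a) with hv0
  have m1 := htW (e a)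
  have m2 := htW1 (e a)
  rw [← hta] at m2
  rw [← hv0] at m1 m2
  rw [Submodule.mem_span_insert] at m1 m2
  obtain ⟨α, w1, hw1, e1⟩ := m1
  obtain ⟨α', w1', hw1', e1'⟩ := m2
  rw [Submodule.mem_span_insert] at hw1 hw1'
  obtain ⟨β, w2, hw2, e2⟩ := hw1
  obtain ⟨β', w2', hw2', e2'⟩ := hw1'
  obtain ⟨γ, δ, e3⟩ := Submodule.mem_span_pair.1 hw2
  obtain ⟨γ', δ', e3'⟩ := Submodule.mem_span_pair.1 hw2'
  have hve : v0 = α • e i + (β • e j + (γ • g (e k) + δ • g (e l))) := by rw [e1, e2, e3]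
  have hve' : v0 = α' • e i + (β' • e j + (γ' • g (e k') + δ' • g (e l'))) := by rw [e1', e2', e3']
  have hdiff : (α - α') • e i + (β - β') • e j = γ' • g (e k') + δ' • g (e l') - (γ • g (e k) + δ • g (e l)) := by
    have h5 := hve.symm.trans hve'
    have h6 : (α - α') • e i + (β - β') • e j
        = (α • e i + (β • e j + (γ • g (e k) + δ • g (e l)))) - (α' • e i + (β' • e j + (γ' • g (e k') + δ' • g (e l'))))
          + (γ' • g (e k') + δ' • g (e l') - (γ • g (e k) + δ • g (e l))) := by module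
    rw [h6, h5, sub_self, zero_add]
  have hgd : g⁻¹ ((α - α') • e i + (β - β') • e j) = γ' • e k' + δ' • e l' - (γ • e k + δ • e l) := by
    rw [hdiff, ap_sub, ap_add, ap_add, ap_smul, ap_smul, ap_smul, ap_smul, inv_ap_self, inv_ap_self, inv_ap_self,
      inv_ap_self]
  have hXz := hX (α - α') (β - β') (by
    intro d hd
    have d1 : k ≠ d := fun h => hd (h ▸ hk)
    have d2 : l ≠ d := fun h => hd (h ▸ hl)
    have d3 : k' ≠ d := fun h => hd (h ▸ hk'X)
    have d4 : l' ≠ d := fun h => hd (h ▸ hl'X)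
    rw [hgd]
    simp only [Pi.sub_apply, Pi.add_apply, Pi.smul_apply, e_app_ne d1, e_app_ne d2, e_app_ne d3, e_app_ne d4,
      smul_zero, add_zero, sub_zero])
  have h0 : γ' • e k' + δ' • e l' - (γ • e k + δ • e l) = (0 : ι → F) := by
    rw [← hgd, hXz]; exact map_zero _
  have hγ : γ = 0 := by
    have := congrFun h0 k
    simp only [Pi.sub_apply, Pi.add_apply, Pi.smul_apply, e_app_self, e_app_ne hkl.symm, e_app_ne hk'k,
      e_app_ne hl'k, smul_eq_mul, mul_zero, mul_one, add_zero, zero_sub, Pi.zero_apply] at this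
    exact neg_eq_zero.1 this
  have hδ : δ = 0 := by
    have := congrFun h0 l
    simp only [Pi.sub_apply, Pi.add_apply, Pi.smul_apply, e_app_self, e_app_ne hkl, e_app_ne hk'l,
      e_app_ne hl'l, smul_eq_mul, mul_zero, mul_one, add_zero, zero_add, zero_sub, Pi.zero_apply] at this
    exact neg_eq_zero.1 this
  have hvv : v0 = α • e i + β • e j := by
    rw [hve, hγ, hδ, zero_smul, zero_smul, add_zero, add_zero]
  have hsv : (sg i j : OGrp (Q0 F ι)) v0 = -v0 := by
    rw [hvv, ap_add, ap_smul, ap_smul, sg_i _ _ hij, sg_j _ _ hij, smul_neg, smul_neg, neg_add]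
  have htv : t v0 = -v0 := by
    rw [hv0, ap_sub, ← mul_ap t t, htt, one_ap, neg_sub]
  have hneg := htn v0 hsv
  rw [htv, ap_neg, ap_neg, neg_neg] at hneg
  -- so `g⁻¹ v0` is supported in `{k, l}`
  have hsup : ∀ d, d ∉ X → (g⁻¹ v0) d = 0 := by
    intro d hd
    have d1 : d ≠ k := fun h => hd (h ▸ hk)
    have d2 : d ≠ l := fun h => hd (h ▸ hl)
    refine neg_supp h2 (x := sg k l) (u := g⁻¹ v0) ?_ ?_
    · rw [← neg_eq_iff_eq_neg]; exact hneg
    · rw [not_mem_mv]
      exact sg_of_zero (e_app_ne d1) (e_app_ne d2)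
  rw [hvv] at hsup
  have hz := hX α β hsup
  rw [← hvv, hv0, sub_eq_zero] at hz
  have htmon : Mon t := hM.st a t htM hz.symm
  apply hM.not_mon_inv hgm
  have : g⁻¹ = (g⁻¹ * t) * t⁻¹ := by group
  rw [this]; exact htm.mul (htmon.inv h2)

end

end Cfsg.Agent.SmallDim.Fr
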