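import Cfsg.Agent.SmallDim.Fr.A5

/-!
# Orthogonal frames: the bireflection case (A), part 6: the complete case
-/

set_option autoImplicit false
set_option linter.unusedSectionVars false
set_option linter.unusedVariables false

namespace Cfsg.Agent.SmallDim.Fr

open QuadraticMap Module Cfsg.Agent.Orth Cfsg.Agent.GeoMax.Ort
open Matrix

variable {F : Type*} [Field F] {ι : Type} [Fintype ι] [DecidableEq ι]

/-- sunflower lemma for 2-sets -/
theorem sunflower {S : ι → Finset ι} {T : Finset ι} (hT : 4 ≤ T.card) (hc : ∀ j ∈ T, (S j).card = 2)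
    (hi : ∀ j ∈ T, ∀ k ∈ T, j ≠ k → (S j ∩ S k).card = 1) : ∃ c, ∀ j ∈ T, c ∈ S j := by
  have hxor : ∀ (A : Finset ι) (x y : ι), x ≠ y → (A ∩ {x, y}).card = 1 → ((x ∈ A ∧ y ∉ A) ∨ (x ∉ A ∧ y ∈ A)) := by
    intro A x y hxy h
    by_cases hx : x ∈ A <;> by_cases hy : y ∈ A
    · exfalso
      have : A ∩ {x, y} = {x, y} := by
        ext z; simp only [Finset.mem_inter, Finset.mem_insert, Finset.mem_singleton]
        constructor
        · exact fun h => h.2
        · rintro (rfl | rfl)
          · exact ⟨hx, Or.inl rfl⟩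
          · exact ⟨hy, Or.inr rfl⟩
      rw [this, Finset.card_pair hxy] at h
      omega
    · exact Or.inl ⟨hx, hy⟩
    · exact Or.inr ⟨hx, hy⟩
    · exfalso
      have : A ∩ {x, y} = ∅ := by
        ext z; simp only [Finset.mem_inter, Finset.mem_insert, Finset.mem_singleton, Finset.notMem_empty, iff_false]
        rintro ⟨h1, rfl | rfl⟩
        · exact hx h1
        · exact hy h1
      rw [this, Finset.card_empty] at h
      omega
  obtain ⟨j1, hj1, j2, hj2, h12⟩ := Finset.one_lt_card.1 (show 1 < T.card by omega)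
  obtain ⟨c, hcc⟩ := Finset.card_eq_one.1 (hi j1 hj1 j2 hj2 h12)
  have hc12 : c ∈ S j1 ∩ S j2 := by rw [hcc]; exact Finset.mem_singleton_self c
  rw [Finset.mem_inter] at hc12
  refine ⟨c, fun j3 hj3 => ?_⟩
  by_contra hc3
  have h31 : j3 ≠ j1 := by rintro rfl; exact hc3 hc12.1
  have h32 : j3 ≠ j2 := by rintro rfl; exact hc3 hc12.2
  have form : ∀ j ∈ T, c ∈ S j → ∃ b, b ≠ c ∧ S j = {c, b} := by
    intro j hj hcj
    obtain ⟨x, y, hxy, hS⟩ := Finset.card_eq_two.1 (hc j hj)
    rw [hS, Finset.mem_insert, Finset.mem_singleton] at hcj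
    rcases hcj with rfl | rfl
    · exact ⟨y, hxy.symm, hS⟩
    · exact ⟨x, hxy, by rw [hS, Finset.pair_comm]⟩
  obtain ⟨b1, hb1, hS1⟩ := form j1 hj1 hc12.1
  obtain ⟨b2, hb2, hS2⟩ := form j2 hj2 hc12.2
  have hb12 : b1 ≠ b2 := by
    rintro rfl
    have := hi j1 hj1 j2 hj2 h12
    rw [hS1, hS2, Finset.inter_self, Finset.card_pair hb1.symm] at this
    omega
  have hx1 := hxor (S j3) c b1 hb1.symm (by rw [← hS1]; exact hi j3 hj3 j1 hj1 h31)
  have hx2 := hxor (S j3) c b2 hb2.symm (by rw [← hS2]; exact hi j3 hj3 j2 hj2 h32)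
  have hS3 : S j3 = {b1, b2} := by
    symm
    apply Finset.eq_of_subset_of_card_le
    · intro z hz
      rw [Finset.mem_insert, Finset.mem_singleton] at hz
      rcases hz with rfl | rfl
      · tauto
      · tauto
    · rw [hc j3 hj3, Finset.card_pair hb12]
  -- a fourth set
  obtain ⟨j4, hj4⟩ : ∃ j4, j4 ∈ T \ {j1, j2, j3} := by
    by_contra hcon
    push Not at hcon
    have h5 : (T \ {j1, j2, j3}).card = 0 := Finset.card_eq_zero.2 (Finset.eq_empty_of_forall_notMem hcon)
    have h6 := Finset.le_card_sdiff ({j1, j2, j3} : Finset ι) T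
    have h7 : ({j1, j2, j3} : Finset ι).card ≤ 3 := Finset.card_le_three
    omega
  rw [Finset.mem_sdiff, Finset.mem_insert, Finset.mem_insert, Finset.mem_singleton, not_or, not_or] at hj4
  obtain ⟨hj4, h41, h42, h43⟩ := hj4
  have y1 := hxor (S j4) c b1 hb1.symm (by rw [← hS1]; exact hi j4 hj4 j1 hj1 h41)
  have y2 := hxor (S j4) c b2 hb2.symm (by rw [← hS2]; exact hi j4 hj4 j2 hj2 h42)
  have y3 := hxor (S j4) b1 b2 hb12 (by rw [← hS3]; exact hi j4 hj4 j3 hj3 h43)
  tauto

/-- the support of a vector -/
noncomputable def sup (v : ι → F) : Finset ι := open Classical in Finset.univ.filter fun d => v d ≠ 0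

theorem mem_sup {v : ι → F} {d : ι} : d ∈ sup v ↔ v d ≠ 0 := by
  classical
  simp [sup]

theorem sup_root {a b : ι} (hab : a ≠ b) {α β : F} (hα : α = 1 ∨ α = -1) (hβ : β = 1 ∨ β = -1) :
    sup (α • e a + β • e b : ι → F) = {a, b} := by
  ext d
  rw [mem_sup, Finset.mem_insert, Finset.mem_singleton]
  have hα0 := pm_ne hα
  have hβ0 := pm_ne hβ
  by_cases h1 : d = a
  · subst h1
    simp [e, hab, Ne.symm hab, hα0]
  · by_cases h3 : d = b
    · subst h3
      simp [e, hab, Ne.symm hab, hβ0]
    · simp [e, h1, h3, Ne.symm h1, Ne.symm h3]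

theorem Rt.card_sup {v : ι → F} (hv : Rt v) : (sup v).card = 2 := by
  obtain ⟨a, b, hab, α, β, hα, hβ, rfl⟩ := Rt_iff.1 hv
  rw [sup_root hab hα hβ, Finset.card_pair hab]

theorem Rt.pm {v : ι → F} (hv : Rt v) {d : ι} (hd : v d ≠ 0) : v d = 1 ∨ v d = -1 := by
  obtain ⟨a, b, hab, α, β, hα, hβ, rfl⟩ := Rt_iff.1 hv
  have hd' : d ∈ sup (α • e a + β • e b : ι → F) := mem_sup.2 hd
  rw [sup_root hab hα hβ, Finset.mem_insert, Finset.mem_singleton] at hd'
  rcases hd' with rfl | rfl
  · have : (α • e d + β • e b : ι → F) d = α := by simp [e, hab, Ne.symm hab]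
    rw [this]; exact hα
  · have : (α • e a + β • e d : ι → F) d = β := by simp [e, hab, Ne.symm hab]
    rw [this]; exact hβ

theorem dot_roots (α β α' β' : F) (a b a' b' : ι) :
    (α • e a + β • e b : ι → F) ⬝ᵥ (α' • e a' + β' • e b') =
      α * α' * (if a = a' then 1 else 0) + α * β' * (if a = b' then 1 else 0)
        + β * α' * (if b = a' then 1 else 0) + β * β' * (if b = b' then 1 else 0) := by
  have h : ∀ x y : ι, (e x : ι → F) ⬝ᵥ e y = if x = y then 1 else 0 := by
    intro x y
    split_ifs with hxy
    · subst hxy; exact e_dot_e_self x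
    · exact e_dot_e_ne hxy
  simp only [add_dotProduct, dotProduct_add, smul_dotProduct, dotProduct_smul, h, smul_eq_mul]
  ring

/-- two roots with inner product `1` -/
theorem Rt.pair (h2 : (2 : F) ≠ 0) {v w : ι → F} (hv : Rt v) (hw : Rt w) (hvw : v ⬝ᵥ w = 1) (hne : v ≠ -w) :
    (sup v ∩ sup w).card = 1 ∧ ∀ d, v d ≠ 0 → w d ≠ 0 → v d = w d := by
  obtain ⟨a, b, hab, α, β, hα, hβ, rfl⟩ := Rt_iff.1 hv
  obtain ⟨a', b', hab', α', β', hα', hβ', rfl⟩ := Rt_iff.1 hw
  have hd : ∀ {x y : F}, (x = 1 ∨ x = -1) → (y = 1 ∨ y = -1) → x * y = 1 → x = y := by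
    intro x y hx hy hxy
    have h0 : (-1 : F) ≠ 1 := by
      intro h
      apply h2
      linear_combination -h
    rcases hx with rfl | rfl <;> rcases hy with rfl | rfl
    · rfl
    · exact absurd (by simpa using hxy) h0
    · exact absurd (by simpa using hxy) h0
    · rfl
  rw [sup_root hab hα hβ, sup_root hab' hα' hβ']
  rw [dot_roots] at hvw
  by_cases h1 : a = a'
  · subst h1
    have hab2 : a ≠ b' := hab'
    by_cases h4 : b = b'
    · subst h4
      exfalso
      simp only [if_true, hab, hab.symm, if_false, mul_zero, mul_one, add_zero] at hvw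
      rcases pm_mul hα hα' with h5 | h5 <;> rcases pm_mul hβ hβ' with h6 | h6 <;> rw [h5, h6] at hvw
      · have : (1 : F) = 0 := by linear_combination hvw
        exact one_ne_zero this
      · have : (1 : F) = 0 := by linear_combination -hvw
        exact one_ne_zero this
      · have : (1 : F) = 0 := by linear_combination -hvw
        exact one_ne_zero this
      · apply hne
        have e1 : α = -α' := by linear_combination α' * h5 - α * pm_sq hα'
        have e3 : β = -β' := by linear_combination β' * h6 - β * pm_sq hβ'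
        rw [e1, e3]
        simp only [neg_smul, neg_add]
    · simp only [if_true, hab2, hab.symm, h4, if_false, mul_zero, mul_one, add_zero] at hvw
      have hαα := hd hα hα' hvw
      subst hαα
      have hint : ({a, b} ∩ {a, b'} : Finset ι) = {a} := by
        ext z
        simp only [Finset.mem_inter, Finset.mem_insert, Finset.mem_singleton]
        constructor
        · rintro ⟨rfl | rfl, h | h⟩
          · rfl
          · rfl
          · exact h
          · exact absurd h h4
        · rintro rfl; exact ⟨Or.inl rfl, Or.inl rfl⟩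
      refine ⟨by rw [hint, Finset.card_singleton], ?_⟩
      intro d hd1 hd3
      have m1 : d ∈ sup (α • e a + β • e b : ι → F) := mem_sup.2 hd1
      have m3 : d ∈ sup (α • e a + β' • e b' : ι → F) := mem_sup.2 hd3
      rw [sup_root hab hα hβ] at m1
      rw [sup_root hab' hα' hβ'] at m3
      have m5 : d ∈ ({a, b} ∩ {a, b'} : Finset ι) := Finset.mem_inter.2 ⟨m1, m3⟩
      rw [hint, Finset.mem_singleton] at m5
      subst m5
      simp [e, hab, hab.symm, hab2, hab2.symm]
  · by_cases h4 : a = b'
    · subst h4
      by_cases h5 : b = a'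
      · subst h5
        exfalso
        simp only [if_true, hab, hab.symm, if_false, mul_zero, mul_one, add_zero, zero_add] at hvw
        rcases pm_mul hα hβ' with h5 | h5 <;> rcases pm_mul hβ hα' with h6 | h6 <;> rw [h5, h6] at hvw
        · have : (1 : F) = 0 := by linear_combination hvw
          exact one_ne_zero this
        · have : (1 : F) = 0 := by linear_combination -hvw
          exact one_ne_zero this
        · have : (1 : F) = 0 := by linear_combination -hvw
          exact one_ne_zero this
        · apply hne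
          have e1 : α = -β' := by linear_combination β' * h5 - α * pm_sq hβ'
          have e3 : β = -α' := by linear_combination α' * h6 - β * pm_sq hα'
          rw [e1, e3]
          simp only [neg_smul, neg_add]
          abel
      · have h6 : b ≠ a := hab.symm
        simp only [if_true, h1, h5, h6, if_false, mul_zero, mul_one, add_zero, zero_add] at hvw
        have hαα := hd hα hβ' hvw
        subst hαα
        have hint : ({a, b} ∩ {a', a} : Finset ι) = {a} := by
          ext z
          simp only [Finset.mem_inter, Finset.mem_insert, Finset.mem_singleton]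
          constructor
          · rintro ⟨rfl | rfl, h | h⟩
            · rfl
            · rfl
            · exact absurd h h5
            · exact h
          · rintro rfl; exact ⟨Or.inl rfl, Or.inr rfl⟩
        refine ⟨by rw [hint, Finset.card_singleton], ?_⟩
        intro d hd1 hd3
        have m1 : d ∈ sup (α • e a + β • e b : ι → F) := mem_sup.2 hd1
        have m3 : d ∈ sup (α' • e a' + α • e a : ι → F) := mem_sup.2 hd3
        rw [sup_root hab hα hβ] at m1
        rw [sup_root hab' hα' hβ'] at m3
        have m5 : d ∈ ({a, b} ∩ {a', a} : Finset ι) := Finset.mem_inter.2 ⟨m1, m3⟩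
        rw [hint, Finset.mem_singleton] at m5
        subst m5
        simp [e, hab, hab.symm, h1, Ne.symm h1]
    · by_cases h5 : b = a'
      · subst h5
        have h6 : b ≠ b' := hab'
        simp only [if_true, h1, h4, h6, if_false, mul_zero, mul_one, add_zero, zero_add] at hvw
        have hαα := hd hβ hα' hvw
        subst hαα
        have hint : ({a, b} ∩ {b, b'} : Finset ι) = {b} := by
          ext z
          simp only [Finset.mem_inter, Finset.mem_insert, Finset.mem_singleton]
          constructor
          · rintro ⟨rfl | rfl, h | h⟩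
            · exact h
            · exact absurd h h4
            · rfl
            · rfl
          · rintro rfl; exact ⟨Or.inr rfl, Or.inl rfl⟩
        refine ⟨by rw [hint, Finset.card_singleton], ?_⟩
        intro d hd1 hd3
        have m1 : d ∈ sup (α • e a + β • e b : ι → F) := mem_sup.2 hd1
        have m3 : d ∈ sup (β • e b + β' • e b' : ι → F) := mem_sup.2 hd3
        rw [sup_root hab hα hβ] at m1
        rw [sup_root hab' hα' hβ'] at m3
        have m5 : d ∈ ({a, b} ∩ {b, b'} : Finset ι) := Finset.mem_inter.2 ⟨m1, m3⟩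
        rw [hint, Finset.mem_singleton] at m5
        subst m5
        simp [e, hab, hab.symm, h6, Ne.symm h6]
      · by_cases h6 : b = b'
        · subst h6
          simp only [if_true, h1, h4, h5, if_false, mul_zero, mul_one, add_zero, zero_add] at hvw
          have hαα := hd hβ hβ' hvw
          subst hαα
          have hint : ({a, b} ∩ {a', b} : Finset ι) = {b} := by
            ext z
            simp only [Finset.mem_inter, Finset.mem_insert, Finset.mem_singleton]
            constructor
            · rintro ⟨rfl | rfl, h | h⟩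
              · exact absurd h h1
              · exact h
              · rfl
              · rfl
            · rintro rfl; exact ⟨Or.inr rfl, Or.inr rfl⟩
          refine ⟨by rw [hint, Finset.card_singleton], ?_⟩
          intro d hd1 hd3
          have m1 : d ∈ sup (α • e a + β • e b : ι → F) := mem_sup.2 hd1
          have m3 : d ∈ sup (α' • e a' + β • e b : ι → F) := mem_sup.2 hd3
          rw [sup_root hab hα hβ] at m1
          rw [sup_root hab' hα' hβ'] at m3
          have m5 : d ∈ ({a, b} ∩ {a', b} : Finset ι) := Finset.mem_inter.2 ⟨m1, m3⟩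
          rw [hint, Finset.mem_singleton] at m5
          subst m5
          simp [e, hab, hab.symm, h5, Ne.symm h5]
        · exfalso
          simp only [h1, h4, h5, h6, if_false, mul_zero, add_zero] at hvw
          exact zero_ne_one hvw

theorem Rt.form {v : ι → F} (hv : Rt v) {c : ι} (hc : v c ≠ 0) :
    ∃ b, ∃ θ : F, b ≠ c ∧ (θ = 1 ∨ θ = -1) ∧ v = v c • e c + θ • e b ∧ v b ≠ 0 := by
  obtain ⟨a, b, hab, α, β, hα, hβ, rfl⟩ := Rt_iff.1 hv
  have hd' : c ∈ sup (α • e a + β • e b : ι → F) := mem_sup.2 hc
  rw [sup_root hab hα hβ, Finset.mem_insert, Finset.mem_singleton] at hd'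
  rcases hd' with rfl | rfl
  · have h1 : (α • e c + β • e b : ι → F) c = α := by simp [e, hab, Ne.symm hab]
    have h3 : (α • e c + β • e b : ι → F) b = β := by simp [e, hab, Ne.symm hab]
    exact ⟨b, β, hab.symm, hβ, by rw [h1], by rw [h3]; exact pm_ne hβ⟩
  · have h1 : (α • e a + β • e c : ι → F) c = β := by simp [e, hab, Ne.symm hab]
    have h3 : (α • e a + β • e c : ι → F) a = α := by simp [e, hab, Ne.symm hab]
    exact ⟨a, α, hab, hα, by rw [h1, add_comm], by rw [h3]; exact pm_ne hα⟩

section
variable {M : Subgroup (OGrp (Q0 F ι))}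

theorem ASet.NC' [Finite F] (hM : ASet M) {h : OGrp (Q0 F ι)} (hh : h ∈ M) {i j : ι} (hij : i ≠ j) :
    ∃ ε : F, (ε = 1 ∨ ε = -1) ∧ Rt (h (e i - ε • e j)) := by
  by_contra hcon
  push Not at hcon
  refine hM.NC (M.inv_mem hh) hij (fun ε hε => ?_)
  rw [inv_inv]
  exact hcon ε hε

end

end Cfsg.Agent.SmallDim.Fr
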