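import Cfsg.Agent.SmallDim.Fr.A6

/-!
# Orthogonal frames: the bireflection case (A), part 7: conclusion
-/

set_option autoImplicit false
set_option linter.unusedSectionVars false
set_option linter.unusedVariables false
set_option linter.unusedSimpArgs false

namespace Cfsg.Agent.SmallDim.Fr

open QuadraticMap Module Cfsg.Agent.Orth Cfsg.Agent.GeoMax.Ort
open Matrix

variable {F : Type*} [Field F] {ι : Type} [Fintype ι] [DecidableEq ι]

section
variable {M : Subgroup (OGrp (Q0 F ι))}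

/-- the complete case: the image of the frame -/
theorem ASet.frame [Finite F] (hM : ASet M) {h : OGrp (Q0 F ι)} (hh : h ∈ M) (hhm : ¬ Mon h) :
    ∃ (b : ι → ι) (σ : ι → F) (κ : F), Function.Injective b ∧ (∀ d, σ d = 1 ∨ σ d = -1) ∧ κ ≠ 0 ∧
      ∀ j, ∃ δ : F, (δ = 1 ∨ δ = -1) ∧ h (e j) = δ • (σ (b j) • e (b j) - κ • σ) := by
  classical
  have h2 := hM.base.two
  have hcard := hM.card
  obtain ⟨i0⟩ : Nonempty ι := Fintype.card_pos_iff.1 (by omega)
  have H : ∀ j, ∃ ε : F, j ≠ i0 → ((ε = 1 ∨ ε = -1) ∧ Rt (h (e i0 - ε • e j))) := by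
    intro j
    by_cases hj : j = i0
    · exact ⟨1, fun h => absurd hj h⟩
    · obtain ⟨ε, h1, h3⟩ := hM.NC' hh (Ne.symm hj)
      exact ⟨ε, fun _ => ⟨h1, h3⟩⟩
  choose ε hε using H
  set ρ : ι → (ι → F) := fun j => h (e i0 - ε j • e j) with hρ
  have hR : ∀ j, j ≠ i0 → Rt (ρ j) := fun j hj => (hε j hj).2
  have hdot : ∀ j k, j ≠ i0 → k ≠ i0 → j ≠ k → ρ j ⬝ᵥ ρ k = 1 := by
    intro j k hj hk hjk
    rw [hρ]
    simp only
    rw [OGrp_dot h2]
    simp only [sub_dotProduct, dotProduct_sub, smul_dotProduct, dotProduct_smul, e_dot_e_self, e_dot_e_ne hj.symm,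
      e_dot_e_ne hk.symm, e_dot_e_ne hj, e_dot_e_ne hk, e_dot_e_ne hjk, smul_eq_mul, mul_zero, sub_zero, sub_self]
  have hne : ∀ j k, j ≠ i0 → k ≠ i0 → j ≠ k → ρ j ≠ - ρ k := by
    intro j k hj hk hjk hcon
    rw [hρ] at hcon
    simp only at hcon
    rw [← ap_neg] at hcon
    have h1 := congrFun (ap_inj h hcon) i0
    simp only [Pi.sub_apply, Pi.neg_apply, Pi.smul_apply, e_app_self, e_app_ne hj, e_app_ne hk, smul_eq_mul,
      mul_zero, sub_zero] at h1
    apply h2
    linear_combination h1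
  have hpair := fun j k (hj : j ≠ i0) (hk : k ≠ i0) (hjk : j ≠ k) =>
    Rt.pair h2 (hR j hj) (hR k hk) (hdot j k hj hk hjk) (hne j k hj hk hjk)
  have hTc : (Finset.univ.erase i0).card = Fintype.card ι - 1 := by
    rw [Finset.card_erase_of_mem (Finset.mem_univ _), Finset.card_univ]
  obtain ⟨c, hc⟩ := sunflower (S := fun j => sup (ρ j)) (T := Finset.univ.erase i0) (by omega)
    (fun j hj => (hR j (Finset.ne_of_mem_erase hj)).card_sup)
    (fun j hj k hk hjk => (hpair j k (Finset.ne_of_mem_erase hj) (Finset.ne_of_mem_erase hk) hjk).1)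
  have hc' : ∀ j, j ≠ i0 → ρ j c ≠ 0 := fun j hj => mem_sup.1 (hc j (Finset.mem_erase.2 ⟨hj, Finset.mem_univ _⟩))
  -- the common sign
  obtain ⟨j1, hj1, -⟩ := exists_ne_two hcard i0 i0
  set η := ρ j1 c with hη
  have hηpm : η = 1 ∨ η = -1 := (hR j1 hj1).pm (hc' j1 hj1)
  have hcη : ∀ j, j ≠ i0 → ρ j c = η := by
    intro j hj
    by_cases hjj : j = j1
    · rw [hjj]
    · exact (hpair j j1 hj hj1 hjj).2 c (hc' j hj) (hc' j1 hj1)
  have H2 : ∀ j, ∃ (b : ι) (θ : F), j ≠ i0 → (b ≠ c ∧ (θ = 1 ∨ θ = -1) ∧ ρ j = η • e c + θ • e b ∧ ρ j b ≠ 0) := by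
    intro j
    by_cases hj : j = i0
    · exact ⟨c, 1, fun h => absurd hj h⟩
    · obtain ⟨b, θ, h1, h3, h5, h7⟩ := (hR j hj).form (hc' j hj)
      rw [hcη j hj] at h5
      exact ⟨b, θ, fun _ => ⟨h1, h3, h5, h7⟩⟩
  choose b0 θ0 hb0 using H2
  set b : ι → ι := fun j => if j = i0 then c else b0 j with hb
  set θ : ι → F := fun j => if j = i0 then -η else θ0 j with hθ
  have hbi0 : b i0 = c := by rw [hb]; simp
  have hθi0 : θ i0 = -η := by rw [hθ]; simp
  have hbj : ∀ j, j ≠ i0 → b j = b0 j := by intro j hj; rw [hb]; simp [hj]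
  have hθj : ∀ j, j ≠ i0 → θ j = θ0 j := by intro j hj; rw [hθ]; simp [hj]
  have hbinj : Function.Injective b := by
    intro j k hjk
    by_contra hne'
    by_cases hj : j = i0
    · subst hj
      rw [hbi0, hbj k (Ne.symm hne')] at hjk
      exact (hb0 k (Ne.symm hne')).1 hjk.symm
    · by_cases hk : k = i0
      · subst hk
        rw [hbi0, hbj j hj] at hjk
        exact (hb0 j hj).1 hjk
      · rw [hbj j hj, hbj k hk] at hjk
        obtain ⟨h1, h3, h5, h7⟩ := hb0 j hj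
        obtain ⟨h1', h3', h5', h7'⟩ := hb0 k hk
        have hcd := (hpair j k hj hk hne').1
        have hsub : ({c, b0 j} : Finset ι) ⊆ sup (ρ j) ∩ sup (ρ k) := by
          intro z hz
          rw [Finset.mem_insert, Finset.mem_singleton] at hz
          rw [Finset.mem_inter, mem_sup, mem_sup]
          rcases hz with rfl | rfl
          · exact ⟨hc' j hj, hc' k hk⟩
          · exact ⟨h7, by rw [hjk]; exact h7'⟩
        have := Finset.card_le_card hsub
        rw [Finset.card_pair h1.symm] at this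
        omega
  have hbbij : Function.Bijective b := Finite.injective_iff_bijective.1 hbinj
  set B := Equiv.ofBijective b hbbij with hB
  set σ : ι → F := fun d => θ (B.symm d) with hσ
  have hσb : ∀ j, σ (b j) = θ j := by
    intro j
    have : B.symm (b j) = j := by
      rw [hB]; exact Equiv.ofBijective_symm_apply_apply b hbbij j
    rw [hσ]; simp only [this]
  have hθpm : ∀ j, θ j = 1 ∨ θ j = -1 := by
    intro j
    by_cases hj : j = i0
    · subst hj
      rw [hθi0]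
      rcases hηpm with h | h <;> rw [h] <;> simp
    · rw [hθj j hj]; exact (hb0 j hj).2.1
  have hσpm : ∀ d, σ d = 1 ∨ σ d = -1 := fun d => hθpm _
  set u : ι → F := h (e i0) - η • e c with hu
  have hform : ∀ j, ∃ δ : F, (δ = 1 ∨ δ = -1) ∧ h (e j) = δ • (θ j • e (b j) - u) := by
    intro j
    by_cases hj : j = i0
    · subst hj
      refine ⟨-1, Or.inr rfl, ?_⟩
      rw [hbi0, hθi0, hu]
      module
    · obtain ⟨h1, h3, h5, h7⟩ := hb0 j hj
      have hεj := (hε j hj).1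
      refine ⟨-ε j, ?_, ?_⟩
      · rcases hεj with h | h <;> rw [h] <;> simp
      · rw [hbj j hj, hθj j hj]
        have h8 : h (e i0) - ε j • h (e j) = η • e c + θ0 j • e (b0 j) := by
          rw [← h5, hρ]; simp only; rw [ap_sub, ap_smul]
        have h9 : ε j • h (e j) = u - θ0 j • e (b0 j) := by
          rw [hu, sub_sub, ← h8]; abel
        have h10 : h (e j) = (ε j * ε j) • h (e j) := by rw [pm_sq hεj, one_smul]
        rw [h10, mul_smul, h9]
        module
  set κ : F := (u ⬝ᵥ u) / 2 with hκ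
  have huσ : u = κ • σ := by
    funext d
    obtain ⟨j, rfl⟩ := hbbij.2 d
    obtain ⟨δ, hδ, hj⟩ := hform j
    have h1 := OGrp_dot h2 h (e j) (e j)
    rw [e_dot_e_self, hj] at h1
    simp only [sub_dotProduct, dotProduct_sub, smul_dotProduct, dotProduct_smul, e_dot_e_self, smul_eq_mul,
      dot_e, e_dot, Pi.smul_apply, Pi.sub_apply, e_app_self] at h1
    rw [Pi.smul_apply, smul_eq_mul, hσb]
    have h3 := pm_sq hδ
    have h4 := pm_sq (hθpm j)
    have h5 : (2 : F) * (θ j * u (b j)) = u ⬝ᵥ u := by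
      have h6 : (δ * δ) * (θ j * θ j - 2 * (θ j * u (b j)) + u ⬝ᵥ u) = 1 := by
        linear_combination h1
      rw [h3, h4] at h6
      linear_combination -h6
    have h7 : (2 : F) * u (b j) = 2 * (κ * θ j) := by
      rw [hκ]
      have : (2 : F) * ((u ⬝ᵥ u) / 2 * θ j) = (u ⬝ᵥ u) * θ j := by field_simp
      rw [this, ← h5]
      linear_combination (-2 * u (b j)) * h4
    exact mul_left_cancel₀ h2 h7
  have hκ0 : κ ≠ 0 := by
    intro h0
    apply hhm
    have hu0 : u = 0 := by rw [huσ, h0, zero_smul]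
    rw [hu, sub_eq_zero] at hu0
    refine hM.P1 hh (i := i0) (j := c) ?_
    rcases hηpm with h | h
    · left; rw [hu0, h, one_smul]
    · right; rw [hu0, h, neg_one_smul]
  refine ⟨b, σ, κ, hbinj, hσpm, hκ0, fun j => ?_⟩
  obtain ⟨δ, hδ, hj⟩ := hform j
  exact ⟨δ, hδ, by rw [hσb, ← huσ, hj]⟩

/-- two commuting reflections -/
theorem rf_rf_ap {p q : ι → F} (hp : p ⬝ᵥ p = 1) (hq : q ⬝ᵥ q = 1) (hpq : q ⬝ᵥ p = 0) (y : ι → F) :
    (rf p * rf q) y = y - (2 * (y ⬝ᵥ p)) • p - (2 * (y ⬝ᵥ q)) • q := by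
  rw [mul_ap, rf_ap1 hq, rf_ap1 hp]
  have : (y - (2 * (y ⬝ᵥ q)) • q) ⬝ᵥ p = y ⬝ᵥ p := by
    rw [sub_dotProduct, smul_dotProduct, hpq, smul_zero, sub_zero]
  rw [this]
  abel

/-- a root vanishes outside two coordinates -/
theorem Rt.zero_off {v : ι → F} (hv : Rt v) : ∃ a b : ι, ∀ d, d ≠ a → d ≠ b → v d = 0 := by
  obtain ⟨a, b, hab, α, β, hα, hβ, rfl⟩ := Rt_iff.1 hv
  refine ⟨a, b, fun d h1 h3 => ?_⟩
  simp only [Pi.add_apply, Pi.smul_apply, e_app_ne (Ne.symm h1), e_app_ne (Ne.symm h3), smul_zero, add_zero]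

/-- **(A)** the bireflection case -/
theorem ASet.mon [Finite F] (hM : ASet M) : ∀ g ∈ M, Mon g := by
  classical
  intro h hh
  by_contra hhm
  have h2 := hM.base.two
  have hcard := hM.card
  obtain ⟨b, σ, κ, hb, hσ, hκ, hform⟩ := hM.frame hh hhm
  choose δ hδ hf using hform
  -- `p j = h (e j)`
  have pne : ∀ j d, d ≠ b j → (h (e j)) d = -(δ j * κ * σ d) := by
    intro j d hd
    rw [hf j]
    simp only [Pi.smul_apply, Pi.sub_apply, e_app_ne (Ne.symm hd), smul_eq_mul, mul_zero]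
    ring
  have pself : ∀ j, (h (e j)) (b j) = δ j * (1 - κ) * σ (b j) := by
    intro j
    rw [hf j]
    simp only [Pi.smul_apply, Pi.sub_apply, e_app_self, smul_eq_mul]
    ring
  have pp : ∀ j, (h (e j)) ⬝ᵥ (h (e j)) = 1 := fun j => by rw [OGrp_dot h2, e_dot_e_self]
  have pq : ∀ j k, j ≠ k → (h (e j)) ⬝ᵥ (h (e k)) = 0 := fun j k hjk => by rw [OGrp_dot h2, e_dot_e_ne hjk]
  obtain ⟨f⟩ : Nonempty (Fin 5 ↪ ι) := Function.Embedding.nonempty_of_card_le (by rw [Fintype.card_fin]; omega)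
  have fne : ∀ {x y : Fin 5}, x ≠ y → f x ≠ f y := fun h1 h3 => h1 (f.injective h3)
  set x := b (f 0) with hx
  set c := b (f 1) with hc
  have hxc : x ≠ c := fun h => fne (show (0 : Fin 5) ≠ 1 by decide) (hb h)
  -- the terms
  have hex : ∀ k : Fin 5, k ≠ 0 → (e x : ι → F) ⬝ᵥ h (e (f k)) = -(δ (f k) * κ * σ x) := by
    intro k hk
    rw [e_dot]
    exact pne _ _ fun h => fne hk (hb h).symm
  have hec : ∀ k : Fin 5, k ≠ 1 → (e c : ι → F) ⬝ᵥ h (e (f k)) = -(δ (f k) * κ * σ c) := by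
    intro k hk
    rw [e_dot]
    exact pne _ _ fun h => fne hk (hb h).symm
  have hec1 : (e c : ι → F) ⬝ᵥ h (e (f 1)) = δ (f 1) * (1 - κ) * σ c := by
    rw [e_dot]; exact pself _
  -- for `m` outside everything
  have hm : ∀ a a' : ι, ∃ m, m ≠ a ∧ m ≠ a' ∧ ∀ k : Fin 5, m ≠ b (f k) := by
    intro a a'
    by_contra hcon
    push Not at hcon
    have hsub : (Finset.univ : Finset ι) ⊆ {a, a'} ∪ Finset.univ.image (fun k : Fin 5 => b (f k)) := by
      intro m _
      rw [Finset.mem_union, Finset.mem_insert, Finset.mem_singleton]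
      by_cases h1 : m = a
      · exact Or.inl (Or.inl h1)
      · by_cases h3 : m = a'
        · exact Or.inl (Or.inr h3)
        · obtain ⟨k, hk⟩ := hcon m h1 h3
          exact Or.inr (Finset.mem_image.2 ⟨k, Finset.mem_univ _, hk.symm⟩)
    have h3 := (Finset.card_le_card hsub).trans (Finset.card_union_le _ _)
    have h4 : (Finset.univ.image (fun k : Fin 5 => b (f k))).card ≤ 5 := by
      refine Finset.card_image_le.trans ?_
      rw [Finset.card_univ, Fintype.card_fin]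
    have h5 : ({a, a'} : Finset ι).card ≤ 2 := Finset.card_le_two
    rw [Finset.card_univ] at h3
    omega
  -- the conclusion from a value of `κ`
  have hfin : ∀ N : F, (2 * κ * N ≠ 1) → ∀ ε : F, (ε = 1 ∨ ε = -1) →
      -(κ * N * σ x) - ε * (σ c * (1 - κ * N)) ≠ 0 := by
    intro N hN ε hε hcon
    rcases hσ x with hsx | hsx <;> rcases hσ c with hsc | hsc <;> rcases hε with rfl | rfl <;> rw [hsx, hsc] at hcon
    · exact one_ne_zero (α := F) (by linear_combination -hcon)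
    · exact hN (by linear_combination -hcon)
    · exact hN (by linear_combination -hcon)
    · exact one_ne_zero (α := F) (by linear_combination -hcon)
    · exact hN (by linear_combination hcon)
    · exact one_ne_zero (α := F) (by linear_combination hcon)
    · exact one_ne_zero (α := F) (by linear_combination hcon)
    · exact hN (by linear_combination hcon)
  have hbi : ∀ j k, rf (h (e j)) * rf (h (e k)) ∈ M := by
    intro j k
    rw [← sg_conj]
    exact M.mul_mem (M.mul_mem hh (hM.base.ee j k)) (M.inv_mem hh)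
  have hδ2 : ∀ j, δ j * δ j = 1 := fun j => pm_sq (hδ j)
  have hσ0 : ∀ d, σ d ≠ 0 := fun d => pm_ne (hσ d)
  -- first element
  have hg1 := hbi (f 1) (f 2)
  obtain ⟨ε, hε, hRt⟩ := hM.NC' hg1 hxc
  have h12 : f 2 ≠ f 1 := fne (by decide)
  by_cases h4κ : 4 * κ = 1
  · -- second element
    have hg2 := M.mul_mem (hbi (f 3) (f 4)) (hbi (f 1) (f 2))
    obtain ⟨ε', hε', hRt'⟩ := hM.NC' hg2 hxc
    obtain ⟨a, a', haa⟩ := hRt'.zero_off
    obtain ⟨m, hma, hma', hmb⟩ := hm a a'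
    have h0 := haa m hma hma'
    rw [mul_ap, rf_rf_ap (pp _) (pp _) (pq _ _ (fne (by decide)))] at h0
    have hy : ∀ k : Fin 5, k ≠ 1 → k ≠ 2 →
        ((rf (h (e (f 1))) * rf (h (e (f 2)))) (e x - ε' • e c)) ⬝ᵥ h (e (f k)) = (e x - ε' • e c) ⬝ᵥ h (e (f k)) := by
      intro k hk1 hk2
      rw [rf_rf_ap (pp _) (pp _) (pq _ _ (fne (by decide)))]
      rw [sub_dotProduct, sub_dotProduct (e x - ε' • e c), smul_dotProduct, smul_dotProduct,
        pq _ _ (fne (Ne.symm hk1)), pq _ _ (fne (Ne.symm hk2)), smul_zero, smul_zero, sub_zero, sub_zero]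
    rw [hy 3 (by decide) (by decide), hy 4 (by decide) (by decide)] at h0
    rw [rf_rf_ap (pp _) (pp _) (pq _ _ (fne (by decide)))] at h0
    simp only [sub_dotProduct, smul_dotProduct, Pi.sub_apply, Pi.smul_apply, smul_eq_mul] at h0
    rw [hex 3 (by decide), hex 4 (by decide), hec 3 (by decide), hec 4 (by decide), hex 1 (by decide),
      hex 2 (by decide), hec1, hec 2 (by decide), pne _ _ (hmb 1), pne _ _ (hmb 2), pne _ _ (hmb 3), pne _ _ (hmb 4),
      e_app_ne (Ne.symm (hmb 0)), e_app_ne (Ne.symm (hmb 1))] at h0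
    refine hfin 4 (fun h => ?_) ε' hε' ?_
    · exact one_ne_zero (α := F) (by linear_combination h - 2 * h4κ)
    · have h3 : (2 * κ * σ m) * (-(κ * 4 * σ x) - ε' * (σ c * (1 - κ * 4))) = 0 := by
        linear_combination h0 - (2 * κ * σ m * (-(κ * σ x) - ε' * ((1 - κ) * σ c))) * hδ2 (f 1)
          - (2 * κ * σ m * (-(κ * σ x) + ε' * (κ * σ c))) * hδ2 (f 2)
          - (2 * κ * σ m * (-(κ * σ x) + ε' * (κ * σ c))) * hδ2 (f 3)
          - (2 * κ * σ m * (-(κ * σ x) + ε' * (κ * σ c))) * hδ2 (f 4)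
      exact (mul_eq_zero.1 h3).resolve_left (mul_ne_zero (mul_ne_zero h2 hκ) (hσ0 m))
  · obtain ⟨a, a', haa⟩ := hRt.zero_off
    obtain ⟨m, hma, hma', hmb⟩ := hm a a'
    have h0 := haa m hma hma'
    rw [rf_rf_ap (pp _) (pp _) (pq _ _ (fne (by decide)))] at h0
    simp only [sub_dotProduct, smul_dotProduct, Pi.sub_apply, Pi.smul_apply, smul_eq_mul] at h0
    rw [hex 1 (by decide), hex 2 (by decide), hec1, hec 2 (by decide), pne _ _ (hmb 1), pne _ _ (hmb 2),
      e_app_ne (Ne.symm (hmb 0)), e_app_ne (Ne.symm (hmb 1))] at h0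
    refine hfin 2 (fun h => h4κ (by linear_combination h)) ε hε ?_
    · have h3 : (2 * κ * σ m) * (-(κ * 2 * σ x) - ε * (σ c * (1 - κ * 2))) = 0 := by
        linear_combination h0 - (2 * κ * σ m * (-(κ * σ x) - ε * ((1 - κ) * σ c))) * hδ2 (f 1)
          - (2 * κ * σ m * (-(κ * σ x) + ε * (κ * σ c))) * hδ2 (f 2)
      exact (mul_eq_zero.1 h3).resolve_left (mul_ne_zero (mul_ne_zero h2 hκ) (hσ0 m))

end

end Cfsg.Agent.SmallDim.Fr
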