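import Cfsg.Agent.SmallDim.Fr.Sup

/-!
# Orthogonal frames: the reflection case (B)

A group `K` of isometries acting on at least five frame coordinates, containing the reflections in the
frame vectors and the 3-cycles, whose frame vector stabilisers are monomial, is monomial.
-/

set_option autoImplicit false
set_option linter.unusedSectionVars false
set_option linter.unusedVariables false

namespace Cfsg.Agent.SmallDim.Fr

open QuadraticMap Module Cfsg.Agent.Orth Cfsg.Agent.GeoMax.Ort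
open Matrix

variable {F : Type*} [Field F] {ι : Type} [Fintype ι] [DecidableEq ι]

/-- the setting of (B) -/
structure BSet (K : Subgroup (OGrp (Q0 F ι))) (J : Finset ι) : Prop where
  two : (2 : F) ≠ 0
  fix : ∀ g ∈ K, Fix J g
  rf_mem : ∀ j ∈ J, rf (e j) ∈ K
  cyc_mem : ∀ i ∈ J, ∀ j ∈ J, ∀ k ∈ J, i ≠ j → i ≠ k → j ≠ k → cyc i j k ∈ K
  st : ∀ j ∈ J, ∀ g ∈ K, g (e j) = e j → Mon g

section
variable {K : Subgroup (OGrp (Q0 F ι))} {J : Finset ι}

theorem exists_third {J : Finset ι} (h3 : 3 ≤ J.card) (i j : ι) : ∃ k ∈ J, k ≠ i ∧ k ≠ j := by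
  classical
  by_contra hcon
  push Not at hcon
  have : J ⊆ {i, j} := by
    intro k hk
    by_cases h : k = i
    · simp [h]
    · simp [hcon k hk h]
  have h1 := Finset.card_le_card this
  have h2 := Finset.card_le_two (a := i) (b := j)
  omega

theorem BSet.mon_of_map (hK : BSet K J) (h3 : 3 ≤ J.card) {g : OGrp (Q0 F ι)} (hg : g ∈ K) {i j : ι}
    (hi : i ∈ J) (hj : j ∈ J) (h : g (e i) = e j ∨ g (e i) = -e j) : Mon g := by
  have key : ∀ g ∈ K, g (e i) = e j → Mon g := by
    intro g hg h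
    by_cases hij : i = j
    · subst hij; exact hK.st i hi g hg h
    · obtain ⟨k, hk, hki, hkj⟩ := exists_third h3 i j
      have hc := hK.cyc_mem j hj i hi k hk (Ne.symm hij) hkj.symm hki.symm
      have h1 : Mon (cyc j i k * g) := by
        refine hK.st i hi _ (K.mul_mem hc hg) ?_
        rw [mul_ap, h, cyc_i hK.two (Ne.symm hij) hkj.symm hki.symm]
      have h4 : g = (cyc j i k)⁻¹ * (cyc j i k * g) := by group
      rw [h4]
      exact ((Mon_cyc hK.two (Ne.symm hij) hki.symm).inv hK.two).mul h1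
  rcases h with h | h
  · exact key g hg h
  · have h1 : Mon (rf (e j) * g) := by
      refine key _ (K.mul_mem (hK.rf_mem j hj) hg) ?_
      rw [mul_ap, h, ap_neg, rf_e_self, neg_neg]
    have h4 : g = rf (e j) * (rf (e j) * g) := by rw [← mul_assoc, rf_mul_self, one_mul]
    rw [h4]
    exact (Mon_rf_e j).mul h1

/-- all products of reflections `r_{e i}`, `r_{g e_j}` with even order give monomial `r_{g e_j}` -/
theorem BSet.mon_of_even [Finite F] (hK : BSet K J) (h5 : 5 ≤ J.card) {g : OGrp (Q0 F ι)} (hg : g ∈ K) {i j : ι}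
    (hi : i ∈ J) (hj : j ∈ J) (h : ¬ Odd (orderOf (rf (e i) * rf (g (e j)) : OGrp (Q0 F ι)))) :
    Mon (rf (g (e j)) : OGrp (Q0 F ι)) := by
  have h2 := hK.two
  have hfK : rf (g (e j)) ∈ K := by
    rw [← rf_conj]; exact K.mul_mem (K.mul_mem hg (hK.rf_mem j hj)) (K.inv_mem hg)
  have hf1 : (g (e j)) ⬝ᵥ (g (e j)) = 1 := by rw [OGrp_self, e_dot_e_self]
  have he1 : (e i : ι → F) ⬝ᵥ (e i) = 1 := e_dot_e_self i
  -- a sufficient condition
  have suff : ∀ k ∈ J, (g (e j)) k = 0 → Mon (rf (g (e j)) : OGrp (Q0 F ι)) := by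
    intro k hk h0
    refine hK.st k hk _ hfK (rf_ortho ?_)
    rw [e_dot]; exact h0
  obtain ⟨z, hz, hz1, hzz, hzs, hzs'⟩ := exists_central (rf_mul_self (e i)) (rf_mul_self (g (e j))) h
    (orderOf_pos _).ne'
  have hzK : z ∈ K := by
    refine (Subgroup.closure_le K).2 ?_ hz
    rintro x (rfl | hx)
    · exact hK.rf_mem i hi
    · rw [Set.mem_singleton_iff] at hx; subst hx; exact hfK
  have hzi : z⁻¹ = z := inv_eq_of_mul_eq_one_left hzz
  rw [rf_conj] at hzs hzs'
  have c1 := rf_inj h2 (by rw [OGrp_self]; exact he1) he1 hzs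
  have c2 := rf_inj h2 (by rw [OGrp_self]; exact hf1) hf1 hzs'
  -- opposite signs force orthogonality
  have opp : z (e i) = e i → z (g (e j)) = -g (e j) → (g (e j)) i = 0 := by
    intro a b
    have := OGrp_dot h2 z (e i) (g (e j))
    rw [a, b, dotProduct_neg, e_dot] at this
    have h4 : (2 : F) * (g (e j)) i = 0 := by linear_combination -this
    exact (mul_eq_zero.1 h4).resolve_left h2
  have opp' : z (e i) = -e i → z (g (e j)) = g (e j) → (g (e j)) i = 0 := by
    intro a b
    have := OGrp_dot h2 z (e i) (g (e j))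
    rw [a, b, neg_dotProduct, e_dot] at this
    have h4 : (2 : F) * (g (e j)) i = 0 := by linear_combination -this
    exact (mul_eq_zero.1 h4).resolve_left h2
  have hW : ∀ v, v - z v ∈ Submodule.span F ({e i, g (e j)} : Set (ι → F)) := by
    refine closure_sub_mem _ ?_ ?_ hz
    · intro v; exact rf_sub_mem _ _ _ (Submodule.subset_span (by simp))
    · intro v; exact rf_sub_mem _ _ _ (Submodule.subset_span (by simp))
  rcases c1 with c1 | c1
  · rcases c2 with c2 | c2
    · exfalso
      apply hz1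
      refine OGrp_ext fun v => ?_
      have hw := hW v
      have hzw : z (v - z v) = v - z v := by
        obtain ⟨a, b, hab⟩ := Submodule.mem_span_pair.1 hw
        rw [← hab, ap_add, ap_smul, ap_smul, c1, c2]
      have hzw' : z (v - z v) = -(v - z v) := by
        rw [ap_sub, ← mul_ap z z, hzz, one_ap, neg_sub]
      rw [hzw] at hzw'
      have h4 : (2 : F) • (v - z v) = 0 := by
        rw [two_smul]
        nth_rewrite 1 [hzw']
        exact neg_add_cancel _
      have h5 := (smul_eq_zero.1 h4).resolve_left h2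
      exact (sub_eq_zero.1 h5).symm
    · exact suff i hi (opp c1 c2)
  · rcases c2 with c2 | c2
    · exact suff i hi (opp' c1 c2)
    · -- `z = -1` on the plane
      have hz' : Mon (rf (e i) * z) := by
        refine hK.st i hi _ (K.mul_mem (hK.rf_mem i hi) hzK) ?_
        rw [mul_ap, c1, ap_neg, rf_e_self, neg_neg]
      have hzM : Mon z := by
        have : z = rf (e i) * (rf (e i) * z) := by rw [← mul_assoc, rf_mul_self, one_mul]
        rw [this]; exact (Mon_rf_e i).mul hz'
      have hcard : (mv z).card ≤ 4 := by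
        refine (card_mv_le h2 hzM _ hW).trans ?_
        have h3 : finrank F (Submodule.span F ({e i, g (e j)} : Set (ι → F))) ≤ 2 := by
          classical
          have h5 := finrank_span_finset_le_card (R := F) ({e i, g (e j)} : Finset (ι → F))
          rw [Finset.coe_pair] at h5
          exact h5.trans Finset.card_le_two
        omega
      obtain ⟨k, hk, hkz⟩ : ∃ k ∈ J, k ∉ mv z := by
        by_contra hcon
        push Not at hcon
        have := Finset.card_le_card (show J ⊆ mv z from hcon)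
        omega
      rw [not_mem_mv] at hkz
      refine suff k hk ?_
      have := OGrp_dot h2 z (e k) (g (e j))
      rw [hkz, c2, dotProduct_neg, e_dot] at this
      have h4 : (2 : F) * (g (e j)) k = 0 := by linear_combination -this
      exact (mul_eq_zero.1 h4).resolve_left h2

open Classical in
/-- a vector whose reflection is monomial has small support -/
theorem card_supp_le (h2 : (2 : F) ≠ 0) {u : ι → F} (hu : u ⬝ᵥ u = 1) (hm : Mon (rf u : OGrp (Q0 F ι))) :
    (Finset.univ.filter fun a => u a ≠ 0).card ≤ 2 := by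
  refine (Finset.card_le_card ?_).trans (card_mv_rf h2 hm)
  intro a ha
  simp only [Finset.mem_filter, Finset.mem_univ, true_and] at ha
  by_contra hcon
  rw [not_mem_mv] at hcon
  have h1 := sub_apply_eq_zero h2 hcon u
  rw [rf_self (by rw [hu]; exact one_ne_zero), sub_neg_eq_add, Pi.add_apply] at h1
  apply ha
  have : (2 : F) * u a = 0 := by linear_combination h1
  exact (mul_eq_zero.1 this).resolve_left h2

/-- three orthonormal vectors cannot be supported on two coordinates -/
theorem no_three {u v w : ι → F} {a b : ι} (hab : a ≠ b) (hu : ∀ i, i ≠ a → i ≠ b → u i = 0)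
    (hv : ∀ i, i ≠ a → i ≠ b → v i = 0) (hw : ∀ i, i ≠ a → i ≠ b → w i = 0)
    (huu : u ⬝ᵥ u = 1) (hvv : v ⬝ᵥ v = 1) (hww : w ⬝ᵥ w = 1) (huv : u ⬝ᵥ v = 0) (huw : u ⬝ᵥ w = 0)
    (hvw : v ⬝ᵥ w = 0) : False := by
  have key : ∀ x y : ι → F, (∀ i, i ≠ a → i ≠ b → x i = 0) → x ⬝ᵥ y = x a * y a + x b * y b := by
    intro x y hx
    rw [dotProduct]
    have h0 : ∑ i, x i * y i = ∑ i ∈ ({a, b} : Finset ι), x i * y i := by
      refine (Finset.sum_subset (Finset.subset_univ _) ?_).symm
      intro c _ hc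
      simp only [Finset.mem_insert, Finset.mem_singleton, not_or] at hc
      rw [hx c hc.1 hc.2, zero_mul]
    rw [h0, Finset.sum_pair hab]
  rw [key _ _ hu] at huu huv huw
  rw [key _ _ hv] at hvv hvw
  rw [key _ _ hw] at hww
  -- `(v a * w b - v b * w a)^2 = 1` and it kills `u`
  have h1 : (v a * w b - v b * w a) * (v a * w b - v b * w a) = 1 := by
    linear_combination (w a * w a + w b * w b) * hvv + hww - (v a * w a + v b * w b) * hvw
  have h3 : u a * (v a * w b - v b * w a) = 0 := by linear_combination w b * huv - v b * huw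
  have h4 : u b * (v a * w b - v b * w a) = 0 := by linear_combination -w a * huv + v a * huw
  have hne : v a * w b - v b * w a ≠ 0 := by
    intro h0; rw [h0, mul_zero] at h1; exact zero_ne_one h1
  have h5 := (mul_eq_zero.1 h3).resolve_right hne
  have h6 := (mul_eq_zero.1 h4).resolve_right hne
  rw [h5, h6] at huu
  simp at huu

/-- a unit vector with at most one nonzero coordinate is `± e a` -/
theorem eq_e_of_supp {u : ι → F} (hu : u ⬝ᵥ u = 1) {a : ι} (h : ∀ i, i ≠ a → u i = 0) :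
    u = e a ∨ u = -e a := by
  refine unit_smul_eq hu (e_dot_e_self a) (c := u a) ?_
  funext i
  by_cases hi : i = a
  · subst hi; simp [e]
  · rw [h i hi]; simp [e, hi]

open Classical in
/-- `(S3)`: no reflection `r_{g e_j}` is monomial when `g` is not -/
theorem BSet.not_mon_rf [Finite F] (hK : BSet K J) (h5 : 5 ≤ J.card) {g : OGrp (Q0 F ι)} (hg : g ∈ K)
    (hgm : ¬ Mon g) {j : ι} (hj : j ∈ J) : ¬ Mon (rf (g (e j)) : OGrp (Q0 F ι)) := by
  intro hmon
  have h2 := hK.two
  have hf1 : (g (e j)) ⬝ᵥ (g (e j)) = 1 := by rw [OGrp_self, e_dot_e_self]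
  have hgi := K.inv_mem hg
  have hgim : ¬ Mon g⁻¹ := fun h => hgm (by have := h.inv h2; rwa [inv_inv] at this)
  set S := Finset.univ.filter (fun a => (g (e j)) a ≠ 0) with hS
  have hScard : S.card ≤ 2 := card_supp_le h2 hf1 hmon
  -- three indices outside the support
  have h3 : 2 < (J \ S).card := by
    have := Finset.le_card_sdiff S J
    omega
  obtain ⟨k, hk, l, hl, m, hm, hkl, hkm, hlm⟩ := Finset.two_lt_card.1 h3
  have hzero : ∀ a, a ∈ J \ S → (g (e j)) a = 0 := by
    intro a ha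
    by_contra hne
    exact (Finset.mem_sdiff.1 ha).2 (by rw [hS]; simp [hne])
  -- the vectors `u a = g⁻¹ e a`
  have hu1 : ∀ a : ι, (g⁻¹ (e a)) ⬝ᵥ (g⁻¹ (e a)) = 1 := fun a => by rw [OGrp_self, e_dot_e_self]
  have hu0 : ∀ a b : ι, a ≠ b → (g⁻¹ (e a)) ⬝ᵥ (g⁻¹ (e b)) = 0 := fun a b hab => by
    rw [OGrp_dot h2, e_dot_e_ne hab]
  have humon : ∀ a ∈ J \ S, Mon (rf (g⁻¹ (e a)) : OGrp (Q0 F ι)) := by
    intro a ha
    refine hK.st j hj _ ?_ (rf_ortho ?_)
    · rw [← rf_conj]; exact K.mul_mem (K.mul_mem hgi (hK.rf_mem a (Finset.mem_sdiff.1 ha).1)) (K.inv_mem hgi)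
    · rw [← OGrp_dot h2 g, ap_inv_self, dot_e]; exact hzero a ha
  have hucard : ∀ a ∈ J \ S, (Finset.univ.filter fun c => (g⁻¹ (e a)) c ≠ 0).card ≤ 2 :=
    fun a ha => card_supp_le h2 (hu1 a) (humon a ha)
  have hune : ∀ a ∈ J \ S, ∀ c ∈ J, ¬ (g⁻¹ (e a) = e c ∨ g⁻¹ (e a) = -e c) := by
    intro a ha c hc h
    exact hgim (hK.mon_of_map (by omega) hgi (Finset.mem_sdiff.1 ha).1 hc h)
  -- each support has exactly two elements, contained in `J`
  have husupp : ∀ a ∈ J \ S, ∀ c, c ∉ J → (g⁻¹ (e a)) c = 0 := by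
    intro a ha c hc
    refine (hK.fix _ hgi).supp h2 ?_ c hc
    intro i hi
    have : i ≠ a := fun h => hi (h ▸ (Finset.mem_sdiff.1 ha).1)
    simp [e, this]
  have htwo : ∀ a ∈ J \ S, ∃ p q, p ≠ q ∧ (g⁻¹ (e a)) p ≠ 0 ∧ (g⁻¹ (e a)) q ≠ 0 ∧
      ∀ i, i ≠ p → i ≠ q → (g⁻¹ (e a)) i = 0 := by
    intro a ha
    have hex : ∃ p, (g⁻¹ (e a)) p ≠ 0 := by
      by_contra hcon
      push Not at hcon
      have h0 : g⁻¹ (e a) = 0 := funext hcon
      have := hu1 a
      rw [h0] at this; simp at this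
    obtain ⟨p, hp⟩ := hex
    have hpJ : p ∈ J := by
      by_contra hpJ; exact hp (husupp a ha p hpJ)
    have hex2 : ∃ q, q ≠ p ∧ (g⁻¹ (e a)) q ≠ 0 := by
      by_contra hcon
      push Not at hcon
      exact hune a ha p hpJ (eq_e_of_supp (hu1 a) hcon)
    obtain ⟨q, hqp, hq⟩ := hex2
    refine ⟨p, q, hqp.symm, hp, hq, ?_⟩
    intro i hip hiq
    by_contra hi
    have hsub : ({p, q, i} : Finset ι) ⊆ Finset.univ.filter fun c => (g⁻¹ (e a)) c ≠ 0 := by
      intro x hx
      simp only [Finset.mem_insert, Finset.mem_singleton] at hx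
      rcases hx with rfl | rfl | rfl
      · exact Finset.mem_filter.2 ⟨Finset.mem_univ _, hp⟩
      · exact Finset.mem_filter.2 ⟨Finset.mem_univ _, hq⟩
      · exact Finset.mem_filter.2 ⟨Finset.mem_univ _, hi⟩
    have hc3 : ({p, q, i} : Finset ι).card = 3 := by
      rw [Finset.card_insert_of_notMem (by simp [hqp.symm, Ne.symm hip]),
        Finset.card_insert_of_notMem (by simp [Ne.symm hiq]), Finset.card_singleton]
    have := Finset.card_le_card hsub
    have := hucard a ha
    omega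
  -- the conjugated 3-cycle
  set y := g⁻¹ * cyc k l m * g with hy
  have hyK : y ∈ K := K.mul_mem (K.mul_mem hgi (hK.cyc_mem k (Finset.mem_sdiff.1 hk).1 l (Finset.mem_sdiff.1 hl).1 m
    (Finset.mem_sdiff.1 hm).1 hkl hkm hlm)) hg
  have hyj : y (e j) = e j := by
    rw [hy, mul_ap, mul_ap, cyc_of_zero h2 hkl hlm (hzero k hk) (hzero l hl) (hzero m hm), inv_ap_self]
  have hym : Mon y := hK.st j hj y hyK hyj
  have hyk : y (g⁻¹ (e k)) = g⁻¹ (e l) := by
    rw [hy, mul_ap, mul_ap, ap_inv_self, cyc_i h2 hkl hkm hlm]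
  have hyl : y (g⁻¹ (e l)) = g⁻¹ (e m) := by
    rw [hy, mul_ap, mul_ap, ap_inv_self, cyc_j h2 hkl hkm hlm]
  have hyM : y (g⁻¹ (e m)) = g⁻¹ (e k) := by
    rw [hy, mul_ap, mul_ap, ap_inv_self, cyc_k h2 hkl hkm hlm]
  have hycard : (mv y).card ≤ 4 := by
    have hy' : y = rf (g⁻¹ (e k - e l)) * rf (g⁻¹ (e l - e m)) := by
      have e1 := rf_conj g⁻¹ (e k - e l : ι → F)
      have e3 := rf_conj g⁻¹ (e l - e m : ι → F)
      rw [inv_inv] at e1 e3
      rw [← e1, ← e3, hy, cyc]; group
    rw [hy'] at hym ⊢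
    exact card_mv_rf_mul h2 hym
  obtain ⟨p1, q1, hpq1, hp1, hq1, hs1⟩ := htwo k hk
  obtain ⟨p2, q2, hpq2, hp2, hq2, hs2⟩ := htwo l hl
  obtain ⟨p3, q3, hpq3, hp3, hq3, hs3⟩ := htwo m hm
  -- orthogonal vectors with two-element supports meeting in a point have the same support
  have meet : ∀ u v : ι → F, ∀ p q p' q' : ι, p ≠ q → p' ≠ q' → u p ≠ 0 → u q ≠ 0 → v p' ≠ 0 → v q' ≠ 0 →
      (∀ i, i ≠ p → i ≠ q → u i = 0) → (∀ i, i ≠ p' → i ≠ q' → v i = 0) → u ⬝ᵥ v = 0 →
      (∃ c, u c ≠ 0 ∧ v c ≠ 0) → ∀ i, i ≠ p → i ≠ q → v i = 0 := by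
    intro u v p q p' q' hpq hpq' hup huq hvp hvq hu hv huv ⟨c, huc, hvc⟩
    have hdot : u ⬝ᵥ v = u p * v p + u q * v q := by
      rw [dotProduct]
      have h0 : ∑ i, u i * v i = ∑ i ∈ ({p, q} : Finset ι), u i * v i := by
        refine (Finset.sum_subset (Finset.subset_univ _) ?_).symm
        intro d _ hd
        simp only [Finset.mem_insert, Finset.mem_singleton, not_or] at hd
        rw [hu d hd.1 hd.2, zero_mul]
      rw [h0, Finset.sum_pair hpq]
    rw [hdot] at huv
    -- both coordinates of `v` at `p`, `q` are nonzero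
    have hc : c = p ∨ c = q := by
      by_contra hcon
      push Not at hcon
      exact huc (hu c hcon.1 hcon.2)
    have hvpq : v p ≠ 0 ∧ v q ≠ 0 := by
      rcases hc with rfl | rfl
      · refine ⟨hvc, fun h0 => ?_⟩
        rw [h0, mul_zero, add_zero] at huv
        exact (mul_ne_zero huc hvc) huv
      · refine ⟨fun h0 => ?_, hvc⟩
        rw [h0, mul_zero, zero_add] at huv
        exact (mul_ne_zero huc hvc) huv
    intro i hip hiq
    have hp' : p = p' ∨ p = q' := by
      by_contra hcon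
      push Not at hcon
      exact hvpq.1 (hv p hcon.1 hcon.2)
    have hq' : q = p' ∨ q = q' := by
      by_contra hcon
      push Not at hcon
      exact hvpq.2 (hv q hcon.1 hcon.2)
    refine hv i ?_ ?_
    · rintro rfl
      rcases hp' with h | h
      · exact hip h.symm
      · rcases hq' with h' | h'
        · exact hiq h'.symm
        · exact hpq (h.trans h'.symm)
    · rintro rfl
      rcases hp' with h | h
      · rcases hq' with h' | h'
        · exact hpq (h.trans h'.symm)
        · exact hiq h'.symm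
      · exact hip h.symm
  -- moved coordinates
  have moved : ∀ u v : ι → F, y u = v → ∀ a, u a ≠ 0 → v a = 0 → a ∈ mv y := by
    intro u v huv a ha hva
    rw [mem_mv]
    intro hya
    have h1 := sub_apply_eq_zero h2 hya u
    rw [huv, Pi.sub_apply, hva, sub_zero] at h1
    exact ha h1
  -- transport of nonzero coordinates
  have trans : ∀ a, ∃ c, ∀ u : ι → F, u a ≠ 0 → (y u) c ≠ 0 := by
    intro a
    obtain ⟨c, hc⟩ := hym a
    refine ⟨c, fun u hu => ?_⟩
    have h1 : (y u) ⬝ᵥ (y (e a)) = u a := by rw [OGrp_dot h2, dot_e]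
    rcases hc with hc | hc
    · rw [hc, dot_e] at h1; rw [h1]; exact hu
    · rw [hc, dotProduct_neg, dot_e] at h1
      intro h0; rw [h0, neg_zero] at h1; exact hu h1.symm
  by_cases hkl' : ∃ c, (g⁻¹ (e k)) c ≠ 0 ∧ (g⁻¹ (e l)) c ≠ 0
  · have hl1 := meet _ _ p1 q1 p2 q2 hpq1 hpq2 hp1 hq1 hp2 hq2 hs1 hs2 (hu0 k l hkl) hkl'
    -- transport a common coordinate
    obtain ⟨c, hck, hcl⟩ := hkl'
    obtain ⟨c', hc'⟩ := trans c
    have h6 := hc' _ hck
    rw [hyk] at h6
    have h7 := hc' _ hcl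
    rw [hyl] at h7
    -- the supports of `l` and `m` meet
    have hm1 := meet _ _ p2 q2 p3 q3 hpq2 hpq3 hp2 hq2 hp3 hq3 hs2 hs3 (hu0 l m hlm) ⟨c', h6, h7⟩
    have hm2 : ∀ i, i ≠ p1 → i ≠ q1 → (g⁻¹ (e m)) i = 0 := by
      intro i hi1 hi2
      refine hm1 i ?_ ?_
      · rintro rfl; exact hp2 (hl1 _ hi1 hi2)
      · rintro rfl; exact hq2 (hl1 _ hi1 hi2)
    exact no_three hpq1 hs1 hl1 hm2 (hu1 k) (hu1 l) (hu1 m) (hu0 k l hkl) (hu0 k m hkm) (hu0 l m hlm)
  · push Not at hkl'
    -- all three supports are disjoint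
    have hlm' : ∀ c, (g⁻¹ (e l)) c ≠ 0 → (g⁻¹ (e m)) c = 0 := by
      intro c hcl
      by_contra hcm
      obtain ⟨c', hc'⟩ := trans c
      have h6 := hc' _ hcl
      rw [hyl] at h6
      have h7 := hc' _ hcm
      rw [hyM] at h7
      obtain ⟨c'', hc''⟩ := trans c'
      have h8 := hc'' _ h6
      rw [hyM] at h8
      have h9 := hc'' _ h7
      rw [hyk] at h9
      exact h9 (hkl' _ h8)
    have hkm' : ∀ c, (g⁻¹ (e k)) c ≠ 0 → (g⁻¹ (e m)) c = 0 := by
      intro c hck
      by_contra hcm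
      obtain ⟨c', hc'⟩ := trans c
      have h6 := hc' _ hck
      rw [hyk] at h6
      have h7 := hc' _ hcm
      rw [hyM] at h7
      exact h6 (hkl' _ h7)
    have hsub : ({p1, q1, p2, q2, p3} : Finset ι) ⊆ mv y := by
      intro x hx
      simp only [Finset.mem_insert, Finset.mem_singleton] at hx
      rcases hx with rfl | rfl | rfl | rfl | rfl
      · exact moved _ _ hyk _ hp1 (hkl' _ hp1)
      · exact moved _ _ hyk _ hq1 (hkl' _ hq1)
      · exact moved _ _ hyl _ hp2 (hlm' _ hp2)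
      · exact moved _ _ hyl _ hq2 (hlm' _ hq2)
      · refine moved _ _ hyM _ hp3 ?_
        by_contra h0
        exact hp3 (hkm' _ h0)
    have d12 : p1 ≠ p2 := by rintro rfl; exact hp2 (hkl' _ hp1)
    have d12' : p1 ≠ q2 := by rintro rfl; exact hq2 (hkl' _ hp1)
    have d13 : p1 ≠ p3 := by rintro rfl; exact hp3 (hkm' _ hp1)
    have e12 : q1 ≠ p2 := by rintro rfl; exact hp2 (hkl' _ hq1)
    have e12' : q1 ≠ q2 := by rintro rfl; exact hq2 (hkl' _ hq1)
    have e13 : q1 ≠ p3 := by rintro rfl; exact hp3 (hkm' _ hq1)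
    have f23 : p2 ≠ p3 := by rintro rfl; exact hp3 (hlm' _ hp2)
    have f23' : q2 ≠ p3 := by rintro rfl; exact hp3 (hlm' _ hq2)
    have hc5 : ({p1, q1, p2, q2, p3} : Finset ι).card = 5 := by
      rw [Finset.card_insert_of_notMem (by simp [hpq1, d12, d12', d13]),
        Finset.card_insert_of_notMem (by simp [e12, e12', e13]),
        Finset.card_insert_of_notMem (by simp [hpq2, f23]),
        Finset.card_insert_of_notMem (by simp [f23']), Finset.card_singleton]
    have := Finset.card_le_card hsub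
    omega

/-- **(B)** -/
theorem BSet.mon [Finite F] (hK : BSet K J) (h5 : 5 ≤ J.card) : ∀ g ∈ K, Mon g := by
  intro g hg
  by_contra hgm
  have h2 := hK.two
  obtain ⟨i, hi⟩ : J.Nonempty := Finset.card_pos.1 (by omega)
  obtain ⟨j, hj, hji, -⟩ := exists_third (by omega : 3 ≤ J.card) i i
  have hodd : ∀ c ∈ J, Odd (orderOf (rf (e i) * rf (g (e c)) : OGrp (Q0 F ι))) := by
    intro c hc
    by_contra hcon
    exact hK.not_mon_rf h5 hg hgm hc (hK.mon_of_even h5 hg hi hc hcon)
  -- the swapping reflections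
  have hsw : ∀ c ∈ J, ∃ w : ι → F, w ⬝ᵥ w = 1 ∧ rf w ∈ K ∧ (rf w (e i) = g (e c) ∨ rf w (e i) = -g (e c)) := by
    intro c hc
    obtain ⟨r, hr, -, hr2⟩ := exists_swap (rf_mul_self (e i)) (rf_mul_self (g (e c))) (hodd c hc)
    have hrK : r ∈ K := by
      refine (Subgroup.closure_le K).2 ?_ hr
      rintro x (rfl | hx)
      · exact hK.rf_mem i hi
      · rw [Set.mem_singleton_iff] at hx; subst hx
        rw [← rf_conj]; exact K.mul_mem (K.mul_mem hg (hK.rf_mem c hc)) (K.inv_mem hg)
    refine ⟨r (e i), by rw [OGrp_self, e_dot_e_self], ?_, ?_⟩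
    · rw [← rf_conj]; exact K.mul_mem (K.mul_mem hrK (hK.rf_mem i hi)) (K.inv_mem hrK)
    · rw [rf_conj] at hr2
      have h4 := rf_conj (rf (r (e i))) (e i : ι → F)
      rw [rf_inv, hr2] at h4
      exact rf_inj h2 (by rw [OGrp_self, e_dot_e_self]) (by rw [OGrp_self, e_dot_e_self]) h4.symm
  obtain ⟨w1, hw1, hw1K, ht1⟩ := hsw i hi
  obtain ⟨w2, hw2, hw2K, ht2⟩ := hsw j hj
  have hback : ∀ (w : ι → F) (c : ι), (rf w (e i) = g (e c) ∨ rf w (e i) = -g (e c)) →
      (rf w (g (e c)) = e i ∨ rf w (g (e c)) = -e i) := by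
    intro w c h
    rcases h with h | h
    · left; rw [← h, rf_rf]
    · right
      have : g (e c) = -rf w (e i) := by rw [h, neg_neg]
      rw [this, ap_neg, rf_rf]
  have m1 : Mon (rf w1 * g) := hK.mon_of_map (by omega) (K.mul_mem hw1K hg) hi hi (hback w1 i ht1)
  have m2 : Mon (rf w2 * g) := hK.mon_of_map (by omega) (K.mul_mem hw2K hg) hj hi (hback w2 j ht2)
  have hx : Mon (rf w2 * rf w1) := by
    have : rf w2 * rf w1 = (rf w2 * g) * (rf w1 * g)⁻¹ := by
      rw [_root_.mul_inv_rev, rf_inv]; group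
    rw [this]; exact m2.mul (m1.inv h2)
  have hcard := card_mv_rf_mul h2 hx
  obtain ⟨k, hk, hkz⟩ : ∃ k ∈ J, k ∉ mv (rf w2 * rf w1) := by
    by_contra hcon
    push Not at hcon
    have := Finset.card_le_card (show J ⊆ mv (rf w2 * rf w1) from hcon)
    omega
  rw [not_mem_mv, mul_ap] at hkz
  have hkz' : rf w1 (e k) = rf w2 (e k) := by rw [← rf_rf w2 (rf w1 (e k)), hkz]
  rw [rf_ap1 hw1, rf_ap1 hw2, sub_right_inj, e_dot, e_dot] at hkz'
  by_cases h0 : w1 k = 0
  · have hfix : rf w1 (e k) = e k := rf_ortho (by rw [e_dot]; exact h0)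
    have := hK.st k hk _ hw1K hfix
    apply hgm
    have hgg : g = rf w1 * (rf w1 * g) := by rw [← mul_assoc, rf_mul_self, one_mul]
    rw [hgg]; exact this.mul m1
  · -- then `w1 = ± w2`
    have hw12 : w1 = ((2 * w1 k)⁻¹ * (2 * w2 k)) • w2 := by
      rw [mul_smul, ← hkz', smul_smul, inv_mul_cancel₀ (mul_ne_zero h2 h0), one_smul]
    have heq : (rf w1 : OGrp (Q0 F ι)) = rf w2 := by
      rcases unit_smul_eq hw1 hw2 hw12 with h | h
      · rw [h]
      · rw [h, rf_neg]
    rw [heq] at ht1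
    have hij : (g (e i)) ⬝ᵥ (g (e j)) = 0 := by rw [OGrp_dot h2, e_dot_e_ne hji.symm]
    have hii : (rf w2 (e i)) ⬝ᵥ (rf w2 (e i)) = 1 := by rw [OGrp_self, e_dot_e_self]
    rcases ht1 with h | h <;> rcases ht2 with h' | h'
    · rw [← h, ← h', hii] at hij; exact one_ne_zero hij
    · have h6 : g (e j) = -rf w2 (e i) := by rw [h', neg_neg]
      rw [← h, h6, dotProduct_neg, hii] at hij; exact one_ne_zero (neg_eq_zero.1 hij)
    · have h6 : g (e i) = -rf w2 (e i) := by rw [h, neg_neg]
      rw [← h', h6, neg_dotProduct, hii] at hij; exact one_ne_zero (neg_eq_zero.1 hij)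
    · have h6 : g (e i) = -rf w2 (e i) := by rw [h, neg_neg]
      have h7 : g (e j) = -rf w2 (e i) := by rw [h', neg_neg]
      rw [h6, h7, neg_dotProduct, dotProduct_neg, neg_neg, hii] at hij; exact one_ne_zero hij

end

/-- **(B)** for the groups `M_J` -/
theorem mon_of_ge_five [Finite F] {M : Subgroup (OGrp (Q0 F ι))} (hM : Base M) (J : Finset ι) (h5 : 5 ≤ J.card)
    {b : ι} (hb : b ∉ J) (hst : ∀ j ∈ J, ∀ g ∈ M, Fix J g → g (e j) = e j → Mon g) :
    ∀ g ∈ M, Fix J g → Mon g := by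
  have h2 := hM.two
  have comm : ∀ g : OGrp (Q0 F ι), Fix J g → g * rf (e b) = rf (e b) * g := by
    intro g hg
    have h := rf_conj g (e b)
    rw [hg b hb] at h
    calc g * rf (e b) = (g * rf (e b) * g⁻¹) * g := by group
      _ = rf (e b) * g := by rw [h]
  let K : Subgroup (OGrp (Q0 F ι)) :=
    { carrier := {g | Fix J g ∧ (g ∈ M ∨ g * rf (e b) ∈ M)}
      one_mem' := ⟨Fix.one J, Or.inl M.one_mem⟩
      mul_mem' := by
        rintro g g' ⟨h1, h⟩ ⟨h1', h'⟩
        refine ⟨h1.mul h1', ?_⟩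
        rcases h with h | h <;> rcases h' with h' | h'
        · exact Or.inl (M.mul_mem h h')
        · right; rw [mul_assoc]; exact M.mul_mem h h'
        · right; rw [mul_assoc, comm g' h1', ← mul_assoc]; exact M.mul_mem h h'
        · left
          have : g * g' = (g * rf (e b)) * (g' * rf (e b)) := by
            rw [comm g' h1', mul_assoc g, ← mul_assoc (rf (e b)), rf_mul_self, one_mul]
          rw [this]; exact M.mul_mem h h'
      inv_mem' := by
        rintro g ⟨h1, h⟩
        refine ⟨h1.inv, ?_⟩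
        rcases h with h | h
        · exact Or.inl (M.inv_mem h)
        · right
          have : g⁻¹ * rf (e b) = (g * rf (e b))⁻¹ := by
            rw [comm g h1, _root_.mul_inv_rev, rf_inv]
          rw [this]; exact M.inv_mem h }
  have hK : BSet K J :=
    { two := h2
      fix := fun g hg => hg.1
      rf_mem := fun j hj => ⟨Fix_rf (fun i hi => by
        have : i ≠ j := fun h => hi (h ▸ hj)
        simp [e, this]), Or.inr (hM.ee j b)⟩
      cyc_mem := fun i hi j hj k hk hij hik hjk => ⟨Fix_cyc h2 hi hj hk, Or.inl (hM.cyc_mem hij hjk)⟩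
      st := by
        rintro j hj g ⟨h1, h⟩ hgj
        rcases h with h | h
        · exact hst j hj g h h1 hgj
        · obtain ⟨k, hk, hkj, -⟩ := exists_third (by omega : 3 ≤ J.card) j j
          have hm : Mon (g * rf (e k)) := by
            refine hst j hj _ ?_ (h1.mul (Fix_rf fun i hi => ?_)) ?_
            · have : g * rf (e k) = (g * rf (e b)) * (rf (e b) * rf (e k)) := by
                rw [mul_assoc g, ← mul_assoc (rf (e b)), rf_mul_self, one_mul]
              rw [this]; exact M.mul_mem h (hM.ee b k)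
            · have : i ≠ k := fun h => hi (h ▸ hk)
              simp [e, this]
            · rw [mul_ap, rf_e_of_zero (by simp [e, hkj]), hgj]
          have : g = (g * rf (e k)) * rf (e k) := by rw [mul_assoc, rf_mul_self, mul_one]
          rw [this]; exact hm.mul (Mon_rf_e k) }
  intro g hg hfix
  exact hK.mon h5 g ⟨hfix, Or.inl hg⟩

end Cfsg.Agent.SmallDim.Fr
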