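import Cfsg.Agent.SmallDim.Fr.A4

/-!
# Orthogonal frames in odd dimension `≥ 7`: the bireflection case

In odd dimension `-rf (e k)` lies in `M`, so the products `rf v * rf w` for `v, w` in the orbit of the frame
vectors lie in `M`; this gives a short proof.
-/

set_option autoImplicit false
set_option linter.unusedSectionVars false
set_option linter.unusedVariables false
set_option linter.unusedSimpArgs false

namespace Cfsg.Agent.SmallDim.Fr

open QuadraticMap Module Cfsg.Agent.Orth Cfsg.Agent.GeoMax.Ort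
open Matrix

variable {F : Type*} [Field F] {ι : Type} [Fintype ι] [DecidableEq ι]

/-- the setting -/
structure OSet (M : Subgroup (OGrp (Q0 F ι))) : Prop where
  base : Base M
  card : 7 ≤ Fintype.card ι
  odd : Odd (Fintype.card ι)
  st : ∀ j, ∀ g ∈ M, g (e j) = e j → Mon g

theorem exists_central' {G : Type*} [Group G] {s s' : G} (hs : s * s = 1) (hs' : s' * s' = 1)
    (h : ¬ Odd (orderOf (s * s'))) (h0 : orderOf (s * s') ≠ 0) :
    ∃ z ∈ Subgroup.zpowers (s * s'), z ≠ 1 ∧ z * z = 1 ∧ z * s * z⁻¹ = s ∧ z * s' * z⁻¹ = s' := by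
  rw [Nat.not_odd_iff_even] at h
  obtain ⟨k, hk⟩ := h
  set r := s * s' with hr
  have hsi : s⁻¹ = s := inv_eq_of_mul_eq_one_left hs
  have hsi' : s'⁻¹ = s' := inv_eq_of_mul_eq_one_left hs'
  have hsr : s * r * s⁻¹ = r⁻¹ := by
    rw [hr, _root_.mul_inv_rev, hsi, hsi']
    calc s * (s * s') * s = (s * s) * s' * s := by group
      _ = s' * s := by rw [hs, one_mul]
  have hsr' : s' * r * s'⁻¹ = r⁻¹ := by
    rw [hr, _root_.mul_inv_rev, hsi, hsi']
    calc s' * (s * s') * s' = s' * s * (s' * s') := by group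
      _ = s' * s := by rw [hs', mul_one]
  have hone : r ^ (k + k) = 1 := by rw [← hk]; exact pow_orderOf_eq_one r
  have hz2 : r ^ k * r ^ k = 1 := by rw [← pow_add]; exact hone
  have hzi : (r ^ k)⁻¹ = r ^ k := inv_eq_of_mul_eq_one_left hz2
  have hc : ∀ y : G, y * r * y⁻¹ = r⁻¹ → r ^ k * y * (r ^ k)⁻¹ = y := by
    intro y hy
    have h1 : y * r ^ k * y⁻¹ = (r ^ k)⁻¹ := by
      rw [← conj_pow, hy, inv_pow]
    rw [hzi] at h1
    have h3 : y * r ^ k = r ^ k * y := by
      calc y * r ^ k = (y * r ^ k * y⁻¹) * y := by group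
        _ = r ^ k * y := by rw [h1]
    rw [← h3]; group
  refine ⟨r ^ k, Subgroup.pow_mem _ (Subgroup.mem_zpowers r) _, ?_, hz2, hc s hsr, hc s' hsr'⟩
  intro hcon
  have h1 := orderOf_dvd_of_pow_eq_one hcon
  have hk0 : 0 < k := by omega
  have := Nat.le_of_dvd hk0 h1
  omega

theorem exists_swap' {G : Type*} [Group G] {s s' : G} (hs : s * s = 1) (hs' : s' * s' = 1)
    (h : Odd (orderOf (s * s'))) :
    ∃ r ∈ Subgroup.zpowers (s * s'), (r * s * r⁻¹) * (r * s * r⁻¹) = 1 ∧
      (r * s * r⁻¹) * s * (r * s * r⁻¹) = s' := by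
  obtain ⟨k, hk⟩ := h
  set r := s * s' with hr
  have hsr : s * r * s = r⁻¹ := by
    rw [hr, _root_.mul_inv_rev, inv_eq_of_mul_eq_one_left hs, inv_eq_of_mul_eq_one_left hs']
    calc s * (s * s') * s = (s * s) * s' * s := by group
      _ = s' * s := by rw [hs, one_mul]
  have hsi : s⁻¹ = s := inv_eq_of_mul_eq_one_left hs
  have hsrm : ∀ m : ℕ, s * r ^ m = (r ^ m)⁻¹ * s := by
    intro m
    have h1 : s * r ^ m * s⁻¹ = (s * r * s⁻¹) ^ m := by rw [conj_pow]
    rw [hsi, hsr] at h1
    calc s * r ^ m = (s * r ^ m * s) * s⁻¹ := by group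
      _ = (r⁻¹) ^ m * s := by rw [h1, hsi]
      _ = (r ^ m)⁻¹ * s := by rw [inv_pow]
  have hone : r ^ (2 * k + 1) = 1 := by rw [← hk]; exact pow_orderOf_eq_one r
  refine ⟨r ^ (k * (k + 1)), Subgroup.pow_mem _ (Subgroup.mem_zpowers r) _, ?_, ?_⟩
  · calc r ^ (k * (k + 1)) * s * (r ^ (k * (k + 1)))⁻¹ * (r ^ (k * (k + 1)) * s * (r ^ (k * (k + 1)))⁻¹)
        = r ^ (k * (k + 1)) * (s * s) * (r ^ (k * (k + 1)))⁻¹ := by group
      _ = 1 := by rw [hs]; group
  · have ht : r ^ (k * (k + 1)) * s * (r ^ (k * (k + 1)))⁻¹ = r ^ k * s := by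
      have h1 : s * (r ^ (k * (k + 1)))⁻¹ = r ^ (k * (k + 1)) * s := by
        have := hsrm (k * (k + 1))
        calc s * (r ^ (k * (k + 1)))⁻¹ = s * (r ^ (k * (k + 1)))⁻¹ * (s * s) := by rw [hs, mul_one]
          _ = s * ((r ^ (k * (k + 1)))⁻¹ * s) * s := by group
          _ = s * (s * r ^ (k * (k + 1))) * s := by rw [this]
          _ = (s * s) * r ^ (k * (k + 1)) * s := by group
          _ = r ^ (k * (k + 1)) * s := by rw [hs, one_mul]
      rw [mul_assoc, h1, ← mul_assoc, ← pow_add]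
      have : k * (k + 1) + k * (k + 1) = (2 * k + 1) * k + k := by ring
      rw [this, pow_add, pow_mul, hone, one_pow, one_mul]
    rw [ht]
    calc r ^ k * s * s * (r ^ k * s) = r ^ k * (s * s) * r ^ k * s := by group
      _ = r ^ k * r ^ k * s := by rw [hs, mul_one]
      _ = r ^ (2 * k + 1) * r⁻¹ * s := by
          rw [← pow_add, ← two_mul, pow_succ]; group
      _ = r⁻¹ * s := by rw [hone, one_mul]
      _ = s' := by
          rw [hr, _root_.mul_inv_rev, hsi, inv_eq_of_mul_eq_one_left hs', mul_assoc, hs, mul_one]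

/-- the isometry `-1` -/
noncomputable def nu : OGrp (Q0 F ι) :=
  ⟨LinearEquiv.neg F, by
    intro x
    change Q0 F ι (-x) = Q0 F ι x
    rw [Q0_apply, Q0_apply, neg_dotProduct_neg]⟩

theorem nu_ap (x : ι → F) : (nu : OGrp (Q0 F ι)) x = -x := rfl

theorem nu_comm (g : OGrp (Q0 F ι)) : g * nu = nu * g := by
  refine OGrp_ext fun x => ?_
  change g ((nu : OGrp (Q0 F ι)) x) = (nu : OGrp (Q0 F ι)) (g x)
  rw [nu_ap, nu_ap, ap_neg]

theorem nu_mul_self : (nu : OGrp (Q0 F ι)) * nu = 1 := by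
  refine OGrp_ext fun x => ?_
  change (nu : OGrp (Q0 F ι)) ((nu : OGrp (Q0 F ι)) x) = x
  rw [nu_ap, nu_ap, neg_neg]

section
variable {M : Subgroup (OGrp (Q0 F ι))}

theorem OSet.three (hM : OSet M) (i j : ι) : ∃ k : ι, k ≠ i ∧ k ≠ j := by
  obtain ⟨k, -, h⟩ := exists_third (J := (Finset.univ : Finset ι))
    (by rw [Finset.card_univ]; have := hM.card; omega) i j
  exact ⟨k, h⟩

theorem OSet.P1 (hM : OSet M) {g : OGrp (Q0 F ι)} (hg : g ∈ M) {i j : ι} (h : g (e i) = e j ∨ g (e i) = -e j) :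
    Mon g := by
  have h2 := hM.base.two
  have key : ∀ g ∈ M, g (e i) = e j → Mon g := by
    intro g hg h
    by_cases hij : i = j
    · subst hij; exact hM.st i g hg h
    · obtain ⟨k, hki, hkj⟩ := hM.three i j
      have hc := hM.base.cyc_mem (Ne.symm hij) hki.symm
      have h1 : Mon (cyc j i k * g) := by
        refine hM.st i _ (M.mul_mem hc hg) ?_
        rw [mul_ap, h, cyc_i h2 (Ne.symm hij) hkj.symm hki.symm]
      have h4 : g = (cyc j i k)⁻¹ * (cyc j i k * g) := by group
      rw [h4]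
      exact ((Mon_cyc h2 (Ne.symm hij) hki.symm).inv h2).mul h1
  rcases h with h | h
  · exact key g hg h
  · obtain ⟨k, hkj, -⟩ := hM.three j j
    have h1 : Mon (sg j k * g) := by
      refine key _ (M.mul_mem (hM.base.ee j k) hg) ?_
      rw [mul_ap, h, ap_neg, sg_i _ _ hkj.symm, neg_neg]
    have h4 : g = (sg j k)⁻¹ * (sg j k * g) := by group
    rw [h4]
    exact ((Mon_sg j k).inv h2).mul h1

/-- even sign changes -/
theorem OSet.sign (hM : OSet M) : ∀ n : ℕ, ∀ S : Finset ι, S.card = 2 * n →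
    ∃ x ∈ M, (∀ i ∈ S, x (e i) = -e i) ∧ ∀ i, i ∉ S → x (e i) = e i := by
  intro n
  induction n with
  | zero =>
    intro S hS
    rw [mul_zero, Finset.card_eq_zero] at hS
    subst hS
    exact ⟨1, M.one_mem, by simp, fun i _ => rfl⟩
  | succ n ih =>
    intro S hS
    obtain ⟨i, hi, j, hj, hij⟩ := Finset.one_lt_card.1 (show 1 < S.card by omega)
    obtain ⟨x, hx, hx1, hx2⟩ := ih ((S.erase i).erase j) (by
      rw [Finset.card_erase_of_mem (Finset.mem_erase.2 ⟨hij.symm, hj⟩), Finset.card_erase_of_mem hi]; omega)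
    refine ⟨sg i j * x, M.mul_mem (hM.base.ee i j) hx, fun k hk => ?_, fun k hk => ?_⟩
    · rw [mul_ap]
      by_cases hki : k = i
      · subst hki
        rw [hx2 k (by simp), sg_i _ _ hij]
      · by_cases hkj : k = j
        · subst hkj
          rw [hx2 k (by simp), sg_j _ _ hij]
        · rw [hx1 k (Finset.mem_erase.2 ⟨hkj, Finset.mem_erase.2 ⟨hki, hk⟩⟩), ap_neg,
            sg_of_zero (e_app_ne hki) (e_app_ne hkj)]
    · have hki : k ≠ i := fun h => hk (h ▸ hi)
      have hkj : k ≠ j := fun h => hk (h ▸ hj)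
      rw [mul_ap, hx2 k (fun h => hk (Finset.mem_of_mem_erase (Finset.mem_of_mem_erase h))),
        sg_of_zero (e_app_ne hki) (e_app_ne hkj)]

/-- `-rf (e k) ∈ M` -/
theorem OSet.tau_mem (hM : OSet M) (k : ι) : nu * rf (e k) ∈ M := by
  obtain ⟨n, hn⟩ := hM.odd
  obtain ⟨x, hx, h1, h3⟩ := hM.sign n (Finset.univ.erase k) (by
    rw [Finset.card_erase_of_mem (Finset.mem_univ _), Finset.card_univ]; omega)
  have : x = nu * rf (e k) := by
    refine ext_e fun i => ?_
    rw [mul_ap, nu_ap]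
    by_cases hik : i = k
    · subst hik
      rw [h3 i (by simp), rf_e_self, neg_neg]
    · rw [h1 i (by simp [hik]), rf_e_of_zero (e_app_ne hik)]
  rw [← this]; exact hx

theorem OSet.tau_conj (hM : OSet M) {g : OGrp (Q0 F ι)} (hg : g ∈ M) (k : ι) : nu * rf (g (e k)) ∈ M := by
  have h1 := M.mul_mem (M.mul_mem hg (hM.tau_mem k)) (M.inv_mem hg)
  have h3 : g * (nu * rf (e k)) * g⁻¹ = nu * rf (g (e k)) := by
    rw [← rf_conj, ← mul_assoc g, nu_comm]; group
  rwa [h3] at h1

theorem nu_mul_nu (a b : OGrp (Q0 F ι)) : (nu * a) * (nu * b) = a * b := by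
  calc (nu * a) * (nu * b) = nu * (a * nu) * b := by group
    _ = (nu * nu) * a * b := by rw [nu_comm]; group
    _ = a * b := by rw [nu_mul_self, one_mul]

theorem OSet.rr_mem (hM : OSet M) {g h : OGrp (Q0 F ι)} (hg : g ∈ M) (hh : h ∈ M) (k l : ι) :
    rf (g (e k)) * rf (h (e l)) ∈ M := by
  rw [← nu_mul_nu]
  exact M.mul_mem (hM.tau_conj hg k) (hM.tau_conj hh l)

/-- a column of a non-monomial element with a zero is a multiple of a root -/
theorem OSet.root_of_zero (hM : OSet M) {g : OGrp (Q0 F ι)} (hg : g ∈ M) (hgm : ¬ Mon g) {l k : ι}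
    (h0 : (g (e l)) k = 0) :
    ∃ a b : ι, a ≠ b ∧ ∃ α β : F, α ≠ 0 ∧ 2 * (α * α) = 1 ∧ (β = α ∨ β = -α) ∧ g (e l) = α • e a + β • e b := by
  classical
  have h2 := hM.base.two
  set v := g (e l) with hv
  have hvv : v ⬝ᵥ v = 1 := by rw [hv, OGrp_dot h2, e_dot_e_self]
  have hx : rf (e k) * rf v ∈ M := by
    have := hM.rr_mem (M.one_mem) hg k l
    rwa [one_ap] at this
  have hxm : Mon (rf (e k) * rf v) := by
    refine hM.P1 hx (i := k) (j := k) (Or.inr ?_)
    rw [mul_ap, rf_ortho (v := v) (by rw [e_dot]; exact h0), rf_e_self]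
  have hrm : Mon (rf v) := by
    have : rf v = rf (e k) * (rf (e k) * rf v) := by rw [← mul_assoc, rf_mul_self, one_mul]
    rw [this]; exact (Mon_rf_e k).mul hxm
  have hcard := card_mv_rf h2 hrm
  have hneg : rf v v = -v := rf_self (by rw [hvv]; exact one_ne_zero)
  have hsupp : ∀ d, d ∉ mv (rf v) → v d = 0 := fun d hd => neg_supp h2 hneg hd
  -- the support has exactly two elements
  have hS : ∃ a b : ι, a ≠ b ∧ ∀ d, d ≠ a → d ≠ b → v d = 0 := by
    obtain ⟨T, hT, hTc⟩ := Finset.exists_superset_card_eq (s := mv (rf v)) (n := 2) hcard (by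
      have := hM.card; omega)
    obtain ⟨a, b, hab, rfl⟩ := Finset.card_eq_two.1 hTc
    refine ⟨a, b, hab, fun d h1 h3 => hsupp d fun h => ?_⟩
    have := hT h
    rw [Finset.mem_insert, Finset.mem_singleton] at this
    rcases this with h | h
    · exact h1 h
    · exact h3 h
  obtain ⟨a, b, hab, hab0⟩ := hS
  have hform : v = v a • e a + v b • e b := by
    funext d
    by_cases h1 : d = a
    · subst h1
      simp [e, hab, hab.symm]
    · by_cases h3 : d = b
      · subst h3
        simp [e, hab, hab.symm]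
      · rw [hab0 d h1 h3]
        simp [e, h1, h3, Ne.symm h1, Ne.symm h3]
  have hnorm : v a * v a + v b * v b = 1 := by
    have h5 := hvv
    rw [hform] at h5
    simp only [add_dotProduct, dotProduct_add, smul_dotProduct, dotProduct_smul, e_dot_e_self, e_dot_e_ne hab,
      e_dot_e_ne hab.symm, smul_eq_mul, mul_one, mul_zero, add_zero, zero_add] at h5
    exact h5
  have pm1 : ∀ c, v = v c • e c → v c * v c = 1 → False := by
    intro c hc hcc
    apply hgm
    refine hM.P1 hg (i := l) (j := c) ?_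
    have : (v c - 1) * (v c + 1) = 0 := by linear_combination hcc
    rcases mul_eq_zero.1 this with h | h
    · left; rw [← hv, hc, sub_eq_zero.1 h, one_smul]
    · right; rw [← hv, hc, eq_neg_of_add_eq_zero_left h, neg_one_smul]
  have ha0 : v a ≠ 0 := by
    intro h
    rw [h] at hform hnorm
    rw [zero_smul, zero_add] at hform
    exact pm1 b hform (by linear_combination hnorm)
  have hb0 : v b ≠ 0 := by
    intro h
    rw [h] at hform hnorm
    rw [zero_smul, add_zero] at hform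
    exact pm1 a hform (by linear_combination hnorm)
  -- the image of `e a`
  obtain ⟨c, hc⟩ := hrm a
  have hra : rf v (e a) = e a - (2 * v a) • v := by rw [rf_ap1 hvv, e_dot]
  have hprod : ∀ x y : ι, x ≠ y → (rf v (e a)) x * (rf v (e a)) y = 0 := by
    intro x y hxy
    rcases hc with h | h
    · rw [h]
      by_cases hx : c = x
      · subst hx; rw [e_app_ne hxy, mul_zero]
      · rw [e_app_ne hx, zero_mul]
    · rw [h, Pi.neg_apply, Pi.neg_apply]
      by_cases hx : c = x
      · subst hx; rw [e_app_ne hxy, neg_zero, mul_zero]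
      · rw [e_app_ne hx, neg_zero, zero_mul]
  have h7 := hprod a b hab
  rw [hra] at h7
  simp only [Pi.sub_apply, Pi.smul_apply, e_app_self, e_app_ne hab, smul_eq_mul] at h7
  have h8 : (1 - 2 * (v a * v a)) * (2 * (v a * v b)) = 0 := by linear_combination -h7
  have h9 : 1 - 2 * (v a * v a) = 0 :=
    (mul_eq_zero.1 h8).resolve_right (mul_ne_zero h2 (mul_ne_zero ha0 hb0))
  refine ⟨a, b, hab, v a, v b, ha0, by linear_combination -h9, ?_, hform⟩
  have h10 : (v b - v a) * (v b + v a) = 0 := by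
    have : (2 : F) * ((v b - v a) * (v b + v a)) = 0 := by linear_combination 2 * hnorm + 2 * h9
    exact (mul_eq_zero.1 this).resolve_left h2
  rcases mul_eq_zero.1 h10 with h | h
  · left; exact sub_eq_zero.1 h
  · right; exact eq_neg_of_add_eq_zero_left h

end

end Cfsg.Agent.SmallDim.Fr
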