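import Cfsg.Agent.SmallDim.Fr.O1

/-!
# Orthogonal frames in odd dimension `≥ 7`: the bireflection case, part 2
-/

set_option autoImplicit false
set_option linter.unusedSectionVars false
set_option linter.unusedVariables false
set_option linter.unusedSimpArgs false

namespace Cfsg.Agent.SmallDim.Fr

open QuadraticMap Module Cfsg.Agent.Orth Cfsg.Agent.GeoMax.Ort
open Matrix

variable {F : Type*} [Field F] {ι : Type} [Fintype ι] [DecidableEq ι]

/-- multiples of roots -/
def RL (v : ι → F) : Prop :=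
  ∃ a b : ι, a ≠ b ∧ ∃ α β : F, α ≠ 0 ∧ 2 * (α * α) = 1 ∧ (β = α ∨ β = -α) ∧ v = α • e a + β • e b

theorem form_apply {a b : ι} (hab : a ≠ b) (α β : F) : (α • e a + β • e b : ι → F) a = α := by
  simp [e, hab, hab.symm]

theorem form_apply' {a b : ι} (hab : a ≠ b) (α β : F) : (α • e a + β • e b : ι → F) b = β := by
  simp [e, hab, hab.symm]

theorem form_apply_ne {a b d : ι} (h1 : d ≠ a) (h3 : d ≠ b) (α β : F) : (α • e a + β • e b : ι → F) d = 0 := by
  simp [e, h1, h3, h1.symm, h3.symm]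

/-- put a given coordinate of the support first -/
theorem RL.at {v : ι → F} (hv : RL v) {x : ι} (hx : v x ≠ 0) :
    ∃ y : ι, y ≠ x ∧ ∃ α β : F, α ≠ 0 ∧ 2 * (α * α) = 1 ∧ (β = α ∨ β = -α) ∧ v = α • e x + β • e y := by
  obtain ⟨a, b, hab, α, β, hα, h2α, hβ, rfl⟩ := hv
  by_cases hxa : x = a
  · subst hxa
    exact ⟨b, hab.symm, α, β, hα, h2α, hβ, rfl⟩
  · by_cases hxb : x = b
    · subst hxb
      refine ⟨a, hab, β, α, ?_, ?_, ?_, add_comm _ _⟩
      · rcases hβ with rfl | rfl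
        · exact hα
        · exact neg_ne_zero.2 hα
      · rcases hβ with rfl | rfl
        · exact h2α
        · rw [neg_mul_neg]; exact h2α
      · rcases hβ with rfl | rfl
        · exact Or.inl rfl
        · exact Or.inr (neg_neg _).symm
    · exact absurd (form_apply_ne hxa hxb α β) hx

theorem dot_form {v : ι → F} (a b : ι) (α β : F) : (α • e a + β • e b : ι → F) ⬝ᵥ v = α * v a + β * v b := by
  rw [add_dotProduct, smul_dotProduct, smul_dotProduct, e_dot, e_dot, smul_eq_mul, smul_eq_mul]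

/-- two orthogonal multiples of roots with a common coordinate have the same support -/
theorem RL.same (h2 : (2 : F) ≠ 0) {v w : ι → F} (hv : RL v) (hw : RL w) (hvw : v ⬝ᵥ w = 0) {x : ι} (hx : v x ≠ 0)
    (hwx : w x ≠ 0) {y : ι} (hyx : y ≠ x) (hy : v y ≠ 0) : w y ≠ 0 := by
  obtain ⟨y1, hy1, α, β, hα, h2α, hβ, rfl⟩ := hv.at hx
  have hyy : y = y1 := by
    by_contra h
    exact hy (form_apply_ne hyx h α β)
  subst hyy
  intro h0
  rw [dot_form, h0, mul_zero, add_zero] at hvw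
  rcases mul_eq_zero.1 hvw with h | h
  · exact hα h
  · exact hwx h

/-- three mutually orthogonal multiples of roots cannot share a coordinate -/
theorem RL.three (h2 : (2 : F) ≠ 0) {u v w : ι → F} (hu : RL u) (hv : RL v) (hw : RL w) (huv : u ⬝ᵥ v = 0)
    (huw : u ⬝ᵥ w = 0) (hvw : v ⬝ᵥ w = 0) {x : ι} (hx : u x ≠ 0) (hvx : v x ≠ 0) (hwx : w x ≠ 0) : False := by
  obtain ⟨y, hyx, α, β, hα, h2α, hβ, hu'⟩ := hu.at hx
  have hβ0 : β ≠ 0 := by
    rcases hβ with rfl | rfl
    · exact hα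
    · exact neg_ne_zero.2 hα
  have huy : u y ≠ 0 := by rw [hu', form_apply' hyx.symm]; exact hβ0
  have hvy := hu.same h2 hv huv hx hvx hyx huy
  have hwy := hu.same h2 hw huw hx hwx hyx huy
  obtain ⟨y1, hyx1, α1, β1, hα1, h2α1, hβ1, hv'⟩ := hv.at hvx
  have : y = y1 := by
    by_contra h
    rw [hv'] at hvy
    exact hvy (form_apply_ne hyx h _ _)
  subst this
  obtain ⟨y2, hyx2, α2, β2, hα2, h2α2, hβ2, hw'⟩ := hw.at hwx
  have : y = y2 := by
    by_contra h
    rw [hw'] at hwy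
    exact hwy (form_apply_ne hyx h _ _)
  subst this
  rw [hu', hv', dot_form, form_apply hyx.symm, form_apply' hyx.symm] at huv
  rw [hu', hw', dot_form, form_apply hyx.symm, form_apply' hyx.symm] at huw
  rw [hv', hw', dot_form, form_apply hyx.symm, form_apply' hyx.symm] at hvw
  -- signs
  obtain ⟨s, hs, rfl⟩ : ∃ s : F, (s = 1 ∨ s = -1) ∧ β = s * α := by
    rcases hβ with rfl | rfl
    · exact ⟨1, Or.inl rfl, by ring⟩
    · exact ⟨-1, Or.inr rfl, by ring⟩
  obtain ⟨s1, hs1, rfl⟩ : ∃ s : F, (s = 1 ∨ s = -1) ∧ β1 = s * α1 := by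
    rcases hβ1 with rfl | rfl
    · exact ⟨1, Or.inl rfl, by ring⟩
    · exact ⟨-1, Or.inr rfl, by ring⟩
  obtain ⟨s2, hs2, rfl⟩ : ∃ s : F, (s = 1 ∨ s = -1) ∧ β2 = s * α2 := by
    rcases hβ2 with rfl | rfl
    · exact ⟨1, Or.inl rfl, by ring⟩
    · exact ⟨-1, Or.inr rfl, by ring⟩
  have e1 : 1 + s * s1 = 0 := by
    have : (1 + s * s1) * (α * α1) = 0 := by linear_combination huv
    exact (mul_eq_zero.1 this).resolve_right (mul_ne_zero hα hα1)
  have e2 : 1 + s * s2 = 0 := by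
    have : (1 + s * s2) * (α * α2) = 0 := by linear_combination huw
    exact (mul_eq_zero.1 this).resolve_right (mul_ne_zero hα hα2)
  have e3 : 1 + s1 * s2 = 0 := by
    have : (1 + s1 * s2) * (α1 * α2) = 0 := by linear_combination hvw
    exact (mul_eq_zero.1 this).resolve_right (mul_ne_zero hα1 hα2)
  have q := pm_sq hs
  have q1 := pm_sq hs1
  apply h2
  -- s1 s2 = (s s1)(s s2) = 1
  linear_combination e3 - e1 * (s * s2) + e2 + (s1 * s2) * q

section
variable {M : Subgroup (OGrp (Q0 F ι))}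

theorem OSet.not_mon_inv (hM : OSet M) {g : OGrp (Q0 F ι)} (hgm : ¬ Mon g) : ¬ Mon g⁻¹ := by
  intro h
  apply hgm
  have := h.inv hM.base.two
  rwa [inv_inv] at this

theorem OSet.rl (hM : OSet M) {g : OGrp (Q0 F ι)} (hg : g ∈ M) (hgm : ¬ Mon g) {l k : ι}
    (h0 : (g (e l)) k = 0) : RL (g (e l)) := hM.root_of_zero hg hgm h0

/-- the case where some column is a multiple of a root is impossible -/
theorem OSet.no_rl (hM : OSet M) {g : OGrp (Q0 F ι)} (hg : g ∈ M) (hgm : ¬ Mon g) {l : ι}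
    (hl : RL (g (e l))) : False := by
  classical
  have h2 := hM.base.two
  have hcard := hM.card
  obtain ⟨a, b, hab, α, β, hα, h2α, hβ, hform⟩ := hl
  -- columns of the inverse
  have hinv : ∀ c, c ≠ a → c ≠ b → RL (g⁻¹ (e c)) := by
    intro c hca hcb
    refine hM.rl (M.inv_mem hg) (hM.not_mon_inv hgm) (k := l) ?_
    rw [← e_dot (g⁻¹ (e c)) l, ← dot_inv h2, hform, dot_form, e_app_ne hca, e_app_ne hcb, mul_zero, mul_zero,
      add_zero]
  -- every column has a zero
  have hall : ∀ x, RL (g (e x)) := by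
    intro x
    -- three coordinates outside `{a, b}`
    have h3 : 3 ≤ ((Finset.univ : Finset ι) \ {a, b}).card := by
      have := Finset.le_card_sdiff ({a, b} : Finset ι) Finset.univ
      have h5 : ({a, b} : Finset ι).card ≤ 2 := Finset.card_le_two
      rw [Finset.card_univ] at this
      omega
    obtain ⟨c1, hc1, c2, hc2, c3, hc3, h12, h13, h23⟩ := Finset.two_lt_card.1 (show 2 < _ by exact h3)
    rw [Finset.mem_sdiff, Finset.mem_insert, Finset.mem_singleton, not_or] at hc1 hc2 hc3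
    by_contra hx
    have hz : ∀ c, c ≠ a → c ≠ b → (g⁻¹ (e c)) x ≠ 0 := by
      intro c hca hcb h0
      apply hx
      refine hM.rl hg hgm (k := c) ?_
      rw [← dot_e (g (e x)) c, dot_inv h2, e_dot, h0]
    have hor : ∀ c d : ι, c ≠ d → (g⁻¹ (e c)) ⬝ᵥ (g⁻¹ (e d)) = 0 := fun c d hcd => by
      rw [OGrp_dot h2, e_dot_e_ne hcd]
    exact RL.three h2 (hinv c1 hc1.2.1 hc1.2.2) (hinv c2 hc2.2.1 hc2.2.2) (hinv c3 hc3.2.1 hc3.2.2)
      (hor _ _ h12) (hor _ _ h13) (hor _ _ h23) (hz c1 hc1.2.1 hc1.2.2) (hz c2 hc2.2.1 hc2.2.2)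
      (hz c3 hc3.2.1 hc3.2.2)
  -- partners
  have hcov : ∀ d, ∃ x, (g (e x)) d ≠ 0 := by
    intro d
    by_contra hcon
    push Not at hcon
    have : g⁻¹ (e d) = 0 := by
      funext x
      rw [← e_dot (g⁻¹ (e d)) x, ← dot_inv h2, dot_e, hcon x]; rfl
    have h5 := ap_inj g⁻¹ (this.trans (map_zero ((g⁻¹ : OGrp (Q0 F ι)) : (ι → F) ≃ₗ[F] (ι → F))).symm)
    exact e_ne_zero d h5
  have hpart : ∀ d, ∃ y, y ≠ d ∧ ∀ x, (g (e x)) d ≠ 0 → ∀ y', y' ≠ d → ((g (e x)) y' ≠ 0 ↔ y' = y) := by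
    intro d
    obtain ⟨x, hx⟩ := hcov d
    obtain ⟨y, hyd, α', β', hα', h2α', hβ', hxf⟩ := (hall x).at hx
    have hβ0 : β' ≠ 0 := by
      rcases hβ' with rfl | rfl
      · exact hα'
      · exact neg_ne_zero.2 hα'
    have hxy : (g (e x)) y ≠ 0 := by rw [hxf, form_apply' hyd.symm]; exact hβ0
    refine ⟨y, hyd, fun x' hx' y' hy' => ?_⟩
    by_cases hxx : x = x'
    · subst hxx
      constructor
      · intro h
        by_contra hne
        apply h
        rw [hxf]; exact form_apply_ne hy' hne _ _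
      · rintro rfl; exact hxy
    · have hor : (g (e x)) ⬝ᵥ (g (e x')) = 0 := by rw [OGrp_dot h2, e_dot_e_ne hxx]
      have hor' : (g (e x')) ⬝ᵥ (g (e x)) = 0 := by rw [dotProduct_comm]; exact hor
      constructor
      · intro h
        have := (hall x').same h2 (hall x) hor' hx' hx hy' h
        by_contra hne
        apply this
        rw [hxf]; exact form_apply_ne hy' hne _ _
      · rintro rfl
        exact (hall x).same h2 (hall x') hor hx hx' hyd hxy
  choose π hπ hπ' using hpart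
  have hinvol : Function.Involutive π := by
    intro d
    obtain ⟨x, hx⟩ := hcov d
    have h1 : (g (e x)) (π d) ≠ 0 := (hπ' d x hx (π d) (hπ d)).2 rfl
    exact ((hπ' (π d) x h1 d (hπ d).symm).1 hx).symm
  -- parity
  have hdvd := Equiv.Perm.two_dvd_card_support (σ := hinvol.toPerm) (by
    ext d
    rw [pow_two, Equiv.Perm.mul_apply, Function.Involutive.coe_toPerm, hinvol d]; rfl)
  have hsup : (hinvol.toPerm).support = Finset.univ := by
    ext d
    rw [Equiv.Perm.mem_support]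
    simp [hπ d]
  rw [hsup, Finset.card_univ] at hdvd
  obtain ⟨n, hn⟩ := hM.odd
  omega

/-- columns of non-monomial elements have no zeros -/
theorem OSet.full (hM : OSet M) {g : OGrp (Q0 F ι)} (hg : g ∈ M) (hgm : ¬ Mon g) (l k : ι) :
    (g (e l)) k ≠ 0 := fun h => hM.no_rl hg hgm (hM.rl hg hgm h)

theorem OSet.odd_order [Finite F] (hM : OSet M) {g : OGrp (Q0 F ι)} (hg : g ∈ M) (hgm : ¬ Mon g) (l k : ι) :
    Odd (orderOf (rf (e k) * rf (g (e l)))) := by
  classical
  by_contra hcon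
  have h2 := hM.base.two
  have hcard := hM.card
  set v := g (e l) with hv
  have hvv : v ⬝ᵥ v = 1 := by rw [hv, OGrp_dot h2, e_dot_e_self]
  obtain ⟨z, hz, hz1, hzz, hzk, hzv⟩ := exists_central' (rf_mul_self (e k)) (rf_mul_self v) hcon
    (orderOf_pos _).ne'
  have hmem : rf (e k) * rf v ∈ M := by
    have := hM.rr_mem (M.one_mem) hg k l
    rwa [one_ap] at this
  have hzM : z ∈ M := (Subgroup.zpowers_le.2 hmem) hz
  rw [rf_conj] at hzk hzv
  have hzek := rf_inj h2 (by rw [OGrp_dot h2, e_dot_e_self]) (e_dot_e_self k) hzk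
  have hzev := rf_inj h2 (by rw [OGrp_dot h2, hvv]) hvv hzv
  have hzm : Mon z := hM.P1 hzM hzek
  have hcl : z ∈ Subgroup.closure ({rf (e k), rf v} : Set (OGrp (Q0 F ι))) := by
    refine (Subgroup.zpowers_le.2 ?_) hz
    exact Subgroup.mul_mem _ (Subgroup.subset_closure (by simp)) (Subgroup.subset_closure (by simp))
  have hW := closure_sub_mem (Submodule.span F {e k, v})
    (fun w => rf_sub_mem (e k) w _ (Submodule.subset_span (by simp)))
    (fun w => rf_sub_mem v w _ (Submodule.subset_span (by simp))) hcl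
  have hmv := card_mv_le h2 hzm _ hW
  have hfr : finrank F (Submodule.span F ({e k, v} : Set (ι → F))) ≤ 2 := by
    have h5 := finrank_span_finset_le_card (R := F) ({e k, v} : Finset (ι → F))
    rw [Finset.coe_pair] at h5
    exact h5.trans Finset.card_le_two
  have hkv : v k ≠ 0 := hM.full hg hgm l k
  rcases hzev with hzv | hzv
  · rcases hzek with hzk | hzk
    · -- `z` fixes both
      apply hz1
      refine eq_one_of_fix h2 hzz _ hW (span_sub_mem_of_fix ?_)
      intro w hw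
      rcases hw with rfl | hw
      · exact hzk
      · rw [Set.mem_singleton_iff] at hw; subst hw; exact hzv
    · apply hkv
      have h1 := OGrp_dot h2 z v (e k)
      rw [hzk, hzv, dotProduct_neg, dot_e] at h1
      have h3 : (2 : F) * v k = 0 := by linear_combination -h1
      exact (mul_eq_zero.1 h3).resolve_left h2
  · obtain ⟨d, hd⟩ : ∃ d, d ∉ mv z := by
      by_contra hcon'
      push Not at hcon'
      have := Finset.card_le_card (show Finset.univ ⊆ mv z from fun x _ => hcon' x)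
      rw [Finset.card_univ] at this
      omega
    exact hM.full hg hgm l d (neg_supp h2 hzv hd)

/-- the swapping reflections -/
theorem OSet.swap [Finite F] (hM : OSet M) {g : OGrp (Q0 F ι)} (hg : g ∈ M) (hgm : ¬ Mon g) (l k : ι) :
    ∃ a : ι → F, a ⬝ᵥ a = 1 ∧ nu * rf a ∈ M ∧ (rf a (e k) = g (e l) ∨ rf a (e k) = -g (e l)) := by
  have h2 := hM.base.two
  set v := g (e l) with hv
  have hvv : v ⬝ᵥ v = 1 := by rw [hv, OGrp_dot h2, e_dot_e_self]
  obtain ⟨r, hr, hr1, hr2⟩ := exists_swap' (rf_mul_self (e k)) (rf_mul_self v) (hM.odd_order hg hgm l k)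
  have hmem : rf (e k) * rf v ∈ M := by
    have := hM.rr_mem (M.one_mem) hg k l
    rwa [one_ap] at this
  have hrM : r ∈ M := (Subgroup.zpowers_le.2 hmem) hr
  rw [rf_conj] at hr2
  refine ⟨r (e k), by rw [OGrp_dot h2, e_dot_e_self], hM.tau_conj hrM k, ?_⟩
  have h3 : rf (r (e k)) * rf (e k) * (rf (r (e k)))⁻¹ = rf v := by rw [rf_inv]; exact hr2
  rw [rf_conj] at h3
  exact rf_inj h2 (by rw [OGrp_dot h2, e_dot_e_self]) hvv h3

/-- **(A) in odd dimension** -/
theorem OSet.mon [Finite F] (hM : OSet M) : ∀ g ∈ M, Mon g := by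
  classical
  intro g hg
  by_contra hgm
  have h2 := hM.base.two
  have hcard := hM.card
  obtain ⟨k⟩ : Nonempty ι := Fintype.card_pos_iff.1 (by omega)
  obtain ⟨l, hlk, -⟩ := hM.three k k
  obtain ⟨a1, ha1, hm1, hs1⟩ := hM.swap hg hgm k k
  obtain ⟨a2, ha2, hm2, hs2⟩ := hM.swap hg hgm l k
  -- the elements `g⁻¹ τ` are monomial
  have hmon : ∀ a : ι → F, ∀ l, nu * rf a ∈ M → (rf a (e k) = g (e l) ∨ rf a (e k) = -g (e l)) →
      Mon (g⁻¹ * (nu * rf a)) := by
    intro a l hm hs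
    refine hM.P1 (M.mul_mem (M.inv_mem hg) hm) (i := k) (j := l) ?_
    rw [mul_ap, mul_ap, nu_ap]
    rcases hs with h | h
    · right; rw [h, ap_neg, inv_ap_self]
    · left; rw [h, neg_neg, inv_ap_self]
  have mon1 := hmon a1 k hm1 hs1
  have mon2 := hmon a2 l hm2 hs2
  have hti : ∀ a : ι → F, (nu * rf a : OGrp (Q0 F ι))⁻¹ = nu * rf a := by
    intro a
    refine inv_eq_of_mul_eq_one_left ?_
    rw [nu_mul_nu, rf_mul_self]
  have hx : Mon (rf a1 * rf a2) := by
    have : rf a1 * rf a2 = (g⁻¹ * (nu * rf a1))⁻¹ * (g⁻¹ * (nu * rf a2)) := by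
      rw [_root_.mul_inv_rev, hti, ← nu_mul_nu]; group
    rw [this]; exact (mon1.inv h2).mul mon2
  have hmv := card_mv_rf_mul h2 hx
  obtain ⟨c, hc⟩ : ∃ c, c ∉ mv (rf a1 * rf a2) := by
    by_contra hcon'
    push Not at hcon'
    have := Finset.card_le_card (show Finset.univ ⊆ mv (rf a1 * rf a2) from fun x _ => hcon' x)
    rw [Finset.card_univ] at this
    omega
  rw [not_mem_mv, mul_ap] at hc
  have hcc : rf a2 (e c) = rf a1 (e c) := by
    have := congrArg (fun v => rf a1 v) hc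
    simpa only [rf_rf] using this
  rw [rf_ap1 ha1, rf_ap1 ha2] at hcc
  have hcc' : (2 * (e c ⬝ᵥ a2)) • a2 = (2 * (e c ⬝ᵥ a1)) • a1 := by
    have := congrArg (fun v => e c - v) hcc
    simpa only [sub_sub_cancel] using this
  by_cases h0 : e c ⬝ᵥ a1 = 0
  · -- then `τ a1` is monomial
    apply hgm
    have hm : Mon (nu * rf a1 : OGrp (Q0 F ι)) := by
      refine hM.P1 hm1 (i := c) (j := c) (Or.inr ?_)
      rw [mul_ap, nu_ap, rf_ortho h0]
    have : g = (nu * rf a1) * (g⁻¹ * (nu * rf a1))⁻¹ := by group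
    rw [this]; exact hm.mul (mon1.inv h2)
  · have ha12 : a1 = ((2 * (e c ⬝ᵥ a1))⁻¹ * (2 * (e c ⬝ᵥ a2))) • a2 := by
      rw [mul_smul, hcc', smul_smul, inv_mul_cancel₀ (mul_ne_zero h2 h0), one_smul]
    have hne0 : ((2 * (e c ⬝ᵥ a1))⁻¹ * (2 * (e c ⬝ᵥ a2))) ≠ 0 := by
      intro h
      rw [h, zero_smul] at ha12
      rw [ha12, zero_dotProduct] at ha1
      exact zero_ne_one ha1
    have hrr : (rf a1 : OGrp (Q0 F ι)) = rf a2 := by
      rw [ha12, rf_smul hne0]
    rw [hrr] at hs1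
    -- so `g (e k) = ± g (e l)`
    have hkl : g (e k) = g (e l) ∨ g (e k) = -g (e l) := by
      rcases hs1 with h | h <;> rcases hs2 with h' | h'
      · left; rw [← h, h']
      · right; rw [← h, h']
      · right; rw [← h', h, neg_neg]
      · left; rw [← neg_inj, ← h, h']
    have h5 := OGrp_dot h2 g (e k) (e l)
    rw [e_dot_e_ne hlk.symm] at h5
    have h7 := OGrp_dot h2 g (e l) (e l)
    rw [e_dot_e_self] at h7
    rcases hkl with h | h
    · rw [h, h7] at h5; exact one_ne_zero h5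
    · rw [h, neg_dotProduct, h7] at h5
      exact one_ne_zero (neg_eq_zero.1 h5)

end

end Cfsg.Agent.SmallDim.Fr
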