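import Cfsg.Agent.SmallDim.Fr.Basic

/-!
# Orthogonal frames: supports of monomial isometries, dihedral groups
-/

set_option autoImplicit false
set_option linter.unusedSectionVars false
set_option linter.unusedVariables false

namespace Cfsg.Agent.SmallDim.Fr

open QuadraticMap Module Cfsg.Agent.Orth Cfsg.Agent.GeoMax.Ort
open Matrix

variable {F : Type*} [Field F] {ι : Type} [Fintype ι] [DecidableEq ι]

instance instFiniteOGrp {V : Type*} [AddCommGroup V] [Module F V] [Finite V] {Q : QuadraticForm F V} :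
    Finite (OGrp Q) :=
  Finite.of_injective (fun g : OGrp Q => fun x : V => (g : V ≃ₗ[F] V) x) fun g h H =>
    OGrp_ext fun x => congrFun H x

/-! ### moved coordinates -/

open Classical in
/-- the set of moved frame vectors -/
noncomputable def mv (x : OGrp (Q0 F ι)) : Finset ι := Finset.univ.filter fun a => x (e a) ≠ e a

theorem mem_mv {x : OGrp (Q0 F ι)} {a : ι} : a ∈ mv x ↔ x (e a) ≠ e a := by simp [mv]

theorem not_mem_mv {x : OGrp (Q0 F ι)} {a : ι} : a ∉ mv x ↔ x (e a) = e a := by simp [mv]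

/-- commutators vanish at fixed coordinates -/
theorem sub_apply_eq_zero (h2 : (2 : F) ≠ 0) {x : OGrp (Q0 F ι)} {a : ι} (ha : x (e a) = e a) (v : ι → F) :
    (v - x v) a = 0 := by
  have h1 : x⁻¹ (e a) = e a := by conv_lhs => rw [← ha]; rw [inv_ap_self]
  rw [← dot_e (v - x v) a, sub_dotProduct, dot_inv h2, h1, sub_self]

theorem card_mv_le (h2 : (2 : F) ≠ 0) {x : OGrp (Q0 F ι)} (hx : Mon x) (W : Submodule F (ι → F))
    (hW : ∀ v, v - x v ∈ W) : (mv x).card ≤ 2 * finrank F W := by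
  classical
  set s : Set (ι → F) := (fun a => e a - x (e a)) '' (mv x : Set ι) with hs
  obtain ⟨b, hbs, hspan, hli⟩ := exists_linearIndependent F s
  have hsfin : s.Finite := (mv x).finite_toSet.image _
  have hbfin : b.Finite := hsfin.subset hbs
  have hbW : ∀ w ∈ b, w ∈ W := by
    intro w hw
    obtain ⟨a, -, rfl⟩ := hbs hw
    exact hW _
  haveI : Fintype b := hbfin.fintype
  have hcard : hbfin.toFinset.card ≤ finrank F W := by
    have h1 : LinearIndependent F (fun w : b => (⟨(w : ι → F), hbW _ w.2⟩ : W)) := by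
      apply LinearIndependent.of_comp W.subtype
      exact hli
    have h3 := h1.fintype_card_le_finrank
    rwa [← Set.toFinset_card, ← Set.Finite.toFinset_eq_toFinset hbfin] at h3
  have hsub : mv x ⊆ hbfin.toFinset.biUnion (fun w => Finset.univ.filter fun a => w a ≠ 0) := by
    intro a ha
    by_contra hcon
    simp only [Finset.mem_biUnion, Set.Finite.mem_toFinset, Finset.mem_filter, Finset.mem_univ, true_and,
      not_exists, not_and, not_not] at hcon
    have h1 : e a - x (e a) ∈ Submodule.span F b := by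
      rw [hspan]
      exact Submodule.subset_span ⟨a, ha, rfl⟩
    have h3 : (e a - x (e a) : ι → F) a = 0 := by
      have h4 : Submodule.span F b ≤ LinearMap.ker (LinearMap.proj a : (ι → F) →ₗ[F] F) := by
        rw [Submodule.span_le]
        intro w hw
        exact hcon w hw
      exact h4 h1
    rw [mem_mv] at ha
    obtain ⟨j, hj⟩ := hx a
    rcases hj with hj | hj
    · have hja : j ≠ a := by rintro rfl; exact ha hj
      rw [hj] at h3
      simp [e, Pi.single_eq_of_ne' hja] at h3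
    · rw [hj] at h3
      by_cases hja : j = a
      · subst hja
        have : (2 : F) = 0 := by simpa [e, one_add_one_eq_two] using h3
        exact h2 this
      · simp [e, Pi.single_eq_of_ne' hja] at h3
  refine (Finset.card_le_card hsub).trans (Finset.card_biUnion_le.trans ?_)
  refine (Finset.sum_le_card_nsmul _ _ 2 ?_).trans ?_
  · intro w hw
    rw [Set.Finite.mem_toFinset] at hw
    obtain ⟨a, ha, rfl⟩ := hbs hw
    obtain ⟨j, hj⟩ := hx a
    have : (Finset.univ.filter fun c => (e a - x (e a) : ι → F) c ≠ 0) ⊆ {a, j} := by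
      intro c hc
      simp only [Finset.mem_filter, Finset.mem_univ, true_and] at hc
      by_contra hcon
      simp only [Finset.mem_insert, Finset.mem_singleton, not_or] at hcon
      apply hc
      rcases hj with hj | hj <;> rw [hj] <;> simp [e, Pi.single_eq_of_ne hcon.1, Pi.single_eq_of_ne hcon.2]
    exact (Finset.card_le_card this).trans Finset.card_le_two
  · rw [smul_eq_mul, mul_comm]
    exact Nat.mul_le_mul_left 2 hcard

/-! ### closures of two elements -/

theorem closure_sub_mem {s s' : OGrp (Q0 F ι)} (W : Submodule F (ι → F)) (hs : ∀ v, v - s v ∈ W)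
    (hs' : ∀ v, v - s' v ∈ W) {g : OGrp (Q0 F ι)} (hg : g ∈ Subgroup.closure ({s, s'} : Set (OGrp (Q0 F ι)))) :
    ∀ v, v - g v ∈ W := by
  induction hg using Subgroup.closure_induction with
  | mem x hx =>
    rcases hx with rfl | hx
    · exact hs
    · rw [Set.mem_singleton_iff] at hx; subst hx; exact hs'
  | one => intro v; rw [one_ap, sub_self]; exact W.zero_mem
  | mul x y _ _ hx hy =>
    intro v
    have : v - (x * y) v = (v - y v) + (y v - x (y v)) := by rw [mul_ap]; abel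
    rw [this]; exact W.add_mem (hy v) (hx (y v))
  | inv x _ hx =>
    intro v
    have h := hx (x⁻¹ v)
    rw [ap_inv_self] at h
    rw [← neg_sub]; exact W.neg_mem h

theorem closure_fix {s s' : OGrp (Q0 F ι)} {v : ι → F} (hs : s v = v) (hs' : s' v = v) {g : OGrp (Q0 F ι)}
    (hg : g ∈ Subgroup.closure ({s, s'} : Set (OGrp (Q0 F ι)))) : g v = v := by
  induction hg using Subgroup.closure_induction with
  | mem x hx =>
    rcases hx with rfl | hx
    · exact hs
    · rw [Set.mem_singleton_iff] at hx; subst hx; exact hs'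
  | one => rfl
  | mul x y _ _ hx hy => rw [mul_ap, hy, hx]
  | inv x _ hx => conv_lhs => rw [← hx]; rw [inv_ap_self]

theorem rf_sub_mem (w v : ι → F) (W : Submodule F (ι → F)) (hw : w ∈ W) : v - rf w v ∈ W := by
  by_cases h : w ⬝ᵥ w = 0
  · have h' : ¬ Q0 F ι w ≠ 0 := by rw [Q0_apply]; simpa using h
    have : rf w = (1 : OGrp (Q0 F ι)) := by unfold rf; rw [dif_neg h']
    rw [this, one_ap, sub_self]; exact W.zero_mem
  · rw [rf_ap h, sub_sub_cancel]
    exact W.smul_mem _ hw

/-- the product of two reflections moves few frame vectors when it is monomial -/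
theorem card_mv_rf_mul (h2 : (2 : F) ≠ 0) {u w : ι → F} (hx : Mon (rf u * rf w)) : (mv (rf u * rf w)).card ≤ 4 := by
  have h := card_mv_le h2 hx (Submodule.span F {u, w}) ?_
  · refine h.trans ?_
    have h3 : finrank F (Submodule.span F ({u, w} : Set (ι → F))) ≤ 2 := by
      classical
      have h5 := finrank_span_finset_le_card (R := F) ({u, w} : Finset (ι → F))
      rw [Finset.coe_pair] at h5
      exact h5.trans Finset.card_le_two
    omega
  · intro v
    have : v - (rf u * rf w) v = (v - rf w v) + (rf w v - rf u (rf w v)) := by rw [mul_ap]; abel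
    rw [this]
    exact Submodule.add_mem _ (rf_sub_mem _ _ _ (Submodule.subset_span (by simp)))
      (rf_sub_mem _ _ _ (Submodule.subset_span (by simp)))

theorem card_mv_rf (h2 : (2 : F) ≠ 0) {u : ι → F} (hx : Mon (rf u)) : (mv (rf u)).card ≤ 2 := by
  have h := card_mv_le h2 hx (Submodule.span F {u}) ?_
  · refine h.trans ?_
    have h3 : finrank F (Submodule.span F ({u} : Set (ι → F))) ≤ 1 := by
      classical
      have h5 := finrank_span_finset_le_card (R := F) ({u} : Finset (ι → F))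
      rw [Finset.coe_singleton, Finset.card_singleton] at h5
      exact h5
    omega
  · intro v
    exact rf_sub_mem _ _ _ (Submodule.subset_span (by simp))

/-! ### reflections in unit vectors -/

theorem unit_smul_eq {u : ι → F} (hu : u ⬝ᵥ u = 1) {c : F} {v : ι → F} (hv : v ⬝ᵥ v = 1) (h : u = c • v) :
    u = v ∨ u = -v := by
  rw [h, smul_dotProduct, dotProduct_smul, hv] at hu
  simp only [smul_eq_mul, mul_one] at hu
  have : (c - 1) * (c + 1) = 0 := by linear_combination hu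
  rcases mul_eq_zero.1 this with h' | h'
  · left; rw [h, sub_eq_zero.1 h', one_smul]
  · right; rw [h, eq_neg_of_add_eq_zero_left h', neg_one_smul]

theorem rf_inj (h2 : (2 : F) ≠ 0) {u v : ι → F} (hu : u ⬝ᵥ u = 1) (hv : v ⬝ᵥ v = 1)
    (h : (rf u : OGrp (Q0 F ι)) = rf v) : u = v ∨ u = -v := by
  have h1 : rf u u = rf v u := by rw [h]
  rw [rf_self (by rw [hu]; exact one_ne_zero), rf_ap1 hv] at h1
  refine unit_smul_eq hu hv (c := u ⬝ᵥ v) ?_
  have h3 : (2 : F) • u = (2 : F) • ((u ⬝ᵥ v) • v) := by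
    rw [smul_smul, two_smul]
    have := congrArg (fun x => u - x) h1
    simp only [sub_neg_eq_add, sub_sub_cancel] at this
    exact this
  exact smul_right_injective _ h2 h3

/-! ### dihedral groups -/

theorem exists_swap {G : Type*} [Group G] {s s' : G} (hs : s * s = 1) (hs' : s' * s' = 1)
    (h : Odd (orderOf (s * s'))) :
    ∃ r ∈ Subgroup.closure ({s, s'} : Set G), (r * s * r⁻¹) * (r * s * r⁻¹) = 1 ∧
      (r * s * r⁻¹) * s * (r * s * r⁻¹) = s' := by
  obtain ⟨k, hk⟩ := h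
  set r := s * s' with hr
  have hsr : s * r * s = r⁻¹ := by
    rw [hr, _root_.mul_inv_rev, inv_eq_of_mul_eq_one_left hs, inv_eq_of_mul_eq_one_left hs']
    calc s * (s * s') * s = (s * s) * s' * s := by group
      _ = s' * s := by rw [hs, one_mul]
  have hsi : s⁻¹ = s := inv_eq_of_mul_eq_one_left hs
  have hsrm : ∀ m : ℕ, s * r ^ m = (r ^ m)⁻¹ * s := by
    intro m
    have h1 : s * r ^ m * s⁻¹ = (s * r * s⁻¹) ^ m := by rw [conj_pow]
    rw [hsi, hsr] at h1
    calc s * r ^ m = (s * r ^ m * s) * s⁻¹ := by group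
      _ = (r⁻¹) ^ m * s := by rw [h1, hsi]
      _ = (r ^ m)⁻¹ * s := by rw [inv_pow]
  have hone : r ^ (2 * k + 1) = 1 := by rw [← hk]; exact pow_orderOf_eq_one r
  have hrmem : r ∈ Subgroup.closure ({s, s'} : Set G) :=
    Subgroup.mul_mem _ (Subgroup.subset_closure (by simp)) (Subgroup.subset_closure (by simp))
  refine ⟨r ^ (k * (k + 1)), Subgroup.pow_mem _ hrmem _, ?_, ?_⟩
  · calc r ^ (k * (k + 1)) * s * (r ^ (k * (k + 1)))⁻¹ * (r ^ (k * (k + 1)) * s * (r ^ (k * (k + 1)))⁻¹)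
        = r ^ (k * (k + 1)) * (s * s) * (r ^ (k * (k + 1)))⁻¹ := by group
      _ = 1 := by rw [hs]; group
  · have ht : r ^ (k * (k + 1)) * s * (r ^ (k * (k + 1)))⁻¹ = r ^ k * s := by
      have h1 : s * (r ^ (k * (k + 1)))⁻¹ = r ^ (k * (k + 1)) * s := by
        have := hsrm (k * (k + 1))
        calc s * (r ^ (k * (k + 1)))⁻¹ = s * (r ^ (k * (k + 1)))⁻¹ * (s * s) := by rw [hs, mul_one]
          _ = s * ((r ^ (k * (k + 1)))⁻¹ * s) * s := by group
          _ = s * (s * r ^ (k * (k + 1))) * s := by rw [this]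
          _ = (s * s) * r ^ (k * (k + 1)) * s := by group
          _ = r ^ (k * (k + 1)) * s := by rw [hs, one_mul]
      rw [mul_assoc, h1, ← mul_assoc, ← pow_add]
      have : k * (k + 1) + k * (k + 1) = (2 * k + 1) * k + k := by ring
      rw [this, pow_add, pow_mul, hone, one_pow, one_mul]
    rw [ht]
    have hkk : s * s * r ^ k * s = r ^ k * s := by rw [hs, one_mul]
    calc r ^ k * s * s * (r ^ k * s) = r ^ k * (s * s) * r ^ k * s := by group
      _ = r ^ k * r ^ k * s := by rw [hs, mul_one]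
      _ = r ^ (2 * k + 1) * r⁻¹ * s := by
          rw [← pow_add, ← two_mul, pow_succ]; group
      _ = r⁻¹ * s := by rw [hone, one_mul]
      _ = s' := by
          rw [hr, _root_.mul_inv_rev, hsi, inv_eq_of_mul_eq_one_left hs', mul_assoc, hs, mul_one]

theorem exists_central {G : Type*} [Group G] {s s' : G} (hs : s * s = 1) (hs' : s' * s' = 1)
    (h : ¬ Odd (orderOf (s * s'))) (h0 : orderOf (s * s') ≠ 0) :
    ∃ z ∈ Subgroup.closure ({s, s'} : Set G), z ≠ 1 ∧ z * z = 1 ∧ z * s * z⁻¹ = s ∧ z * s' * z⁻¹ = s' := by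
  rw [Nat.not_odd_iff_even] at h
  obtain ⟨k, hk⟩ := h
  set r := s * s' with hr
  have hsi : s⁻¹ = s := inv_eq_of_mul_eq_one_left hs
  have hsi' : s'⁻¹ = s' := inv_eq_of_mul_eq_one_left hs'
  have hsr : s * r * s⁻¹ = r⁻¹ := by
    rw [hr, _root_.mul_inv_rev, hsi, hsi']
    calc s * (s * s') * s = (s * s) * s' * s := by group
      _ = s' * s := by rw [hs, one_mul]
  have hsr' : s' * r * s'⁻¹ = r⁻¹ := by
    rw [hr, _root_.mul_inv_rev, hsi, hsi']
    calc s' * (s * s') * s' = s' * s * (s' * s') := by group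
      _ = s' * s := by rw [hs', mul_one]
  have hone : r ^ (k + k) = 1 := by rw [← hk]; exact pow_orderOf_eq_one r
  have hz2 : r ^ k * r ^ k = 1 := by rw [← pow_add]; exact hone
  have hzi : (r ^ k)⁻¹ = r ^ k := inv_eq_of_mul_eq_one_left hz2
  have hrmem : r ∈ Subgroup.closure ({s, s'} : Set G) :=
    Subgroup.mul_mem _ (Subgroup.subset_closure (by simp)) (Subgroup.subset_closure (by simp))
  have hc : ∀ y : G, y * r * y⁻¹ = r⁻¹ → r ^ k * y * (r ^ k)⁻¹ = y := by
    intro y hy
    have h1 : y * r ^ k * y⁻¹ = (r ^ k)⁻¹ := by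
      rw [← conj_pow, hy, inv_pow]
    rw [hzi] at h1
    have h3 : y * r ^ k = r ^ k * y := by
      calc y * r ^ k = (y * r ^ k * y⁻¹) * y := by group
        _ = r ^ k * y := by rw [h1]
    rw [← h3]; group
  refine ⟨r ^ k, Subgroup.pow_mem _ hrmem _, ?_, hz2, hc s hsr, hc s' hsr'⟩
  intro hcon
  have h1 := orderOf_dvd_of_pow_eq_one hcon
  have hk0 : 0 < k := by omega
  have := Nat.le_of_dvd hk0 h1
  omega

/-! ### cycles -/

theorem dot_sub_e (v : ι → F) (i j : ι) : v ⬝ᵥ (e i - e j) = v i - v j := by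
  rw [dotProduct_sub, dot_e, dot_e]

theorem sub_e_self {i j : ι} (hij : i ≠ j) : ((e i - e j : ι → F)) ⬝ᵥ (e i - e j) = 2 := by
  rw [dot_sub_e]
  simp [e, hij, hij.symm, one_add_one_eq_two]

theorem rf_swap (h2 : (2 : F) ≠ 0) {i j : ι} (hij : i ≠ j) (v : ι → F) :
    (rf (e i - e j) : OGrp (Q0 F ι)) v = v - (v i - v j) • (e i - e j) := by
  rw [rf_ap (by rw [sub_e_self hij]; exact h2), sub_e_self hij, dot_sub_e]
  rw [← mul_assoc, inv_mul_cancel₀ h2, one_mul]

theorem rf_swap_left (h2 : (2 : F) ≠ 0) {i j : ι} (hij : i ≠ j) : (rf (e i - e j) : OGrp (Q0 F ι)) (e i) = e j := by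
  rw [rf_swap h2 hij]
  simp [e, hij, hij.symm]

theorem rf_swap_right (h2 : (2 : F) ≠ 0) {i j : ι} (hij : i ≠ j) : (rf (e i - e j) : OGrp (Q0 F ι)) (e j) = e i := by
  rw [rf_swap h2 hij]
  simp [e, hij, hij.symm]

theorem rf_swap_of_eq (h2 : (2 : F) ≠ 0) {i j : ι} (hij : i ≠ j) {v : ι → F} (hv : v i = v j) :
    (rf (e i - e j) : OGrp (Q0 F ι)) v = v := by
  rw [rf_swap h2 hij, hv, sub_self, zero_smul, sub_zero]

/-- the 3-cycle `i → j → k → i` -/
noncomputable def cyc (i j k : ι) : OGrp (Q0 F ι) := rf (e i - e j) * rf (e j - e k)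

theorem cyc_i (h2 : (2 : F) ≠ 0) {i j k : ι} (hij : i ≠ j) (hik : i ≠ k) (hjk : j ≠ k) :
    (cyc i j k : OGrp (Q0 F ι)) (e i) = e j := by
  rw [cyc, mul_ap, rf_swap_of_eq h2 hjk (by simp [e, hij.symm, hik.symm]), rf_swap_left h2 hij]

theorem cyc_j (h2 : (2 : F) ≠ 0) {i j k : ι} (hij : i ≠ j) (hik : i ≠ k) (hjk : j ≠ k) :
    (cyc i j k : OGrp (Q0 F ι)) (e j) = e k := by
  rw [cyc, mul_ap, rf_swap_left h2 hjk, rf_swap_of_eq h2 hij (by simp [e, hjk, hik])]

theorem cyc_k (h2 : (2 : F) ≠ 0) {i j k : ι} (hij : i ≠ j) (hik : i ≠ k) (hjk : j ≠ k) :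
    (cyc i j k : OGrp (Q0 F ι)) (e k) = e i := by
  rw [cyc, mul_ap, rf_swap_right h2 hjk, rf_swap_right h2 hij]

theorem cyc_of_zero (h2 : (2 : F) ≠ 0) {i j k : ι} (hij : i ≠ j) (hjk : j ≠ k) {v : ι → F}
    (hi : v i = 0) (hj : v j = 0) (hk : v k = 0) : (cyc i j k : OGrp (Q0 F ι)) v = v := by
  rw [cyc, mul_ap, rf_swap_of_eq h2 hjk (by rw [hj, hk]), rf_swap_of_eq h2 hij (by rw [hi, hj])]

theorem rf_e_self (i : ι) : (rf (e i) : OGrp (Q0 F ι)) (e i) = -e i := rf_self (by rw [e_dot_e_self]; exact one_ne_zero)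

theorem rf_e_of_zero {i : ι} {v : ι → F} (hv : v i = 0) : (rf (e i) : OGrp (Q0 F ι)) v = v := rf_ortho (by rw [dot_e]; exact hv)

theorem Mon_rf_e (i : ι) : Mon (rf (e i) : OGrp (Q0 F ι)) := by
  intro j
  refine ⟨j, ?_⟩
  by_cases h : j = i
  · subst h; right; exact rf_e_self j
  · left; exact rf_e_of_zero (by simp [e, Ne.symm h])

theorem Mon_rf_swap (h2 : (2 : F) ≠ 0) {i j : ι} (hij : i ≠ j) : Mon (rf (e i - e j) : OGrp (Q0 F ι)) := by
  intro k
  by_cases h : k = i
  · subst h; exact ⟨j, Or.inl (rf_swap_left h2 hij)⟩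
  · by_cases h' : k = j
    · subst h'; exact ⟨i, Or.inl (rf_swap_right h2 hij)⟩
    · exact ⟨k, Or.inl (rf_swap_of_eq h2 hij (by simp [e, Ne.symm h, Ne.symm h']))⟩

theorem Mon_cyc (h2 : (2 : F) ≠ 0) {i j k : ι} (hij : i ≠ j) (hjk : j ≠ k) : Mon (cyc i j k : OGrp (Q0 F ι)) :=
  (Mon_rf_swap h2 hij).mul (Mon_rf_swap h2 hjk)

theorem Fix_rf {J : Finset ι} {v : ι → F} (hv : ∀ i, i ∉ J → v i = 0) : Fix J (rf v) := by
  intro i hi
  exact rf_ortho (by rw [e_dot]; exact hv i hi)

theorem Fix_cyc {J : Finset ι} (h2 : (2 : F) ≠ 0) {i j k : ι} (hi : i ∈ J) (hj : j ∈ J) (hk : k ∈ J) :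
    Fix J (cyc i j k : OGrp (Q0 F ι)) := by
  refine (Fix_rf ?_).mul (Fix_rf ?_) <;> intro a ha
  · have h1 : a ≠ i := fun h => ha (h ▸ hi)
    have h3 : a ≠ j := fun h => ha (h ▸ hj)
    simp [e, h1, h3]
  · have h1 : a ≠ j := fun h => ha (h ▸ hj)
    have h3 : a ≠ k := fun h => ha (h ▸ hk)
    simp [e, h1, h3]

theorem Rt_sub {i j : ι} (hij : i ≠ j) : Rt (e i - e j : ι → F) := ⟨i, j, hij, Or.inr (Or.inl rfl)⟩

theorem Base.cyc_mem {M : Subgroup (OGrp (Q0 F ι))} (hM : Base M) {i j k : ι} (hij : i ≠ j) (hjk : j ≠ k) :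
    cyc i j k ∈ M := hM.dd _ _ (Rt_sub hij) (Rt_sub hjk)

end Cfsg.Agent.SmallDim.Fr
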